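import Mathlib
import Cfsg.Prelude.Def_SolvableStructure
import Cfsg.Agent.Solv.FrattiniFree

set_option autoImplicit false
set_option linter.style.haveILetI false

namespace Cfsg.Agent.Solv.SSv
open Subgroup

universe u v
variable {G : Type u} [Group G]

/-- Subgroups reachable from the bottom by cyclic steps through normal subgroups. -/
inductive Reach (G : Type u) [Group G] : Subgroup G → Prop
  | bot : Reach G ⊥
  | step (K L : Subgroup G) (g : G) : Reach G K → L.Normal → L = K ⊔ zpowers g → Reach G L

theorem Reach.normal {K : Subgroup G} (h : Reach G K) : K.Normal := by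
  cases h with
  | bot => infer_instance
  | step _ _ _ _ h _ => exact h

theorem reach_iff : Cfsg.IsSupersolvable G ↔ Reach G ⊤ := by
  constructor
  · rintro ⟨n, H, h0, hn, hN, hs⟩
    rw [← hn]
    have : ∀ i, Reach G (H i) := by
      intro i
      induction i using Fin.induction with
      | zero => rw [h0]; exact Reach.bot
      | succ i ih => obtain ⟨g, hg⟩ := hs i; exact Reach.step _ _ g ih (hN _) hg
    exact this _
  · intro h
    suffices key : ∀ K, Reach G K → ∃ (n : ℕ) (H : Fin (n + 1) → Subgroup G),
        H 0 = ⊥ ∧ H (Fin.last n) = K ∧ (∀ i, (H i).Normal) ∧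
          ∀ i : Fin n, ∃ g : G, H i.succ = H i.castSucc ⊔ zpowers g from key ⊤ h
    intro K hK
    induction hK with
    | bot => exact ⟨0, fun _ => ⊥, rfl, rfl, fun _ => inferInstance, fun i => i.elim0⟩
    | step K L g _ hL heq ih =>
      obtain ⟨n, H, h0, hn, hN, hs⟩ := ih
      refine ⟨n + 1, Fin.snoc H L, ?_, by simp, ?_, ?_⟩
      · rw [← Fin.castSucc_zero, Fin.snoc_castSucc]; exact h0
      · intro i
        induction i using Fin.lastCases with
        | last => simpa using hL
        | cast i => simpa using hN i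
      · intro i
        induction i using Fin.lastCases with
        | last => refine ⟨g, ?_⟩; simp only [Fin.succ_last, Fin.snoc_last, Fin.snoc_castSucc, hn]; exact heq
        | cast i =>
          obtain ⟨g, hg⟩ := hs i
          refine ⟨g, ?_⟩
          rw [Fin.succ_castSucc, Fin.snoc_castSucc, Fin.snoc_castSucc]; exact hg

theorem Reach.map {Q : Type v} [Group Q] {f : G →* Q} (hf : Function.Surjective f) {K : Subgroup G}
    (h : Reach G K) : Reach Q (K.map f) := by
  induction h with
  | bot => rw [Subgroup.map_bot]; exact Reach.bot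
  | step K L g _ hL heq ih =>
    exact Reach.step _ _ (f g) ih (hL.map f hf) (by rw [heq, Subgroup.map_sup, MonoidHom.map_zpowers])

theorem of_surjective {Q : Type v} [Group Q] (f : G →* Q) (hf : Function.Surjective f)
    (h : Cfsg.IsSupersolvable G) : Cfsg.IsSupersolvable Q := by
  rw [reach_iff] at h ⊢
  simpa [Subgroup.map_top_of_surjective f hf] using h.map hf

theorem of_mulEquiv {Q : Type v} [Group Q] (e : G ≃* Q)
    (h : Cfsg.IsSupersolvable G) : Cfsg.IsSupersolvable Q :=
  of_surjective e.toMonoidHom e.surjective h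

theorem of_quotient (N : Subgroup G) [N.Normal] (h : Cfsg.IsSupersolvable G) :
    Cfsg.IsSupersolvable (G ⧸ N) :=
  of_surjective (QuotientGroup.mk' N) (QuotientGroup.mk'_surjective N) h

theorem Reach.subgroupOf (H : Subgroup G) {K : Subgroup G} (h : Reach G K) :
    Reach H (K.subgroupOf H) := by
  induction h with
  | bot => rw [Subgroup.bot_subgroupOf]; exact Reach.bot
  | step K L g hK hL heq ih =>
    haveI := hK.normal
    haveI := hL
    let q := QuotientGroup.mk' K
    have hcyc : IsCyclic ((H ⊓ L).map q) := by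
      have hle : (H ⊓ L).map q ≤ zpowers (q g) := by
        refine (Subgroup.map_mono inf_le_right).trans ?_
        rw [heq, Subgroup.map_sup, MonoidHom.map_zpowers]
        refine sup_le (fun y hy => ?_) le_rfl
        obtain ⟨x, hx, rfl⟩ := hy
        rw [show q x = 1 from (QuotientGroup.eq_one_iff x).2 hx]
        exact one_mem _
      exact isCyclic_of_injective (Subgroup.inclusion hle) (Subgroup.inclusion_injective hle)
    obtain ⟨y, hy⟩ := (Subgroup.isCyclic_iff_exists_zpowers_eq_top ((H ⊓ L).map q)).1 hcyc
    obtain ⟨x, hx, rfl⟩ : y ∈ (H ⊓ L).map q := hy ▸ mem_zpowers y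
    obtain ⟨hxH, hxL⟩ := hx
    refine Reach.step _ _ (⟨x, hxH⟩ : H) ih inferInstance ?_
    refine le_antisymm ?_ (sup_le ?_ ?_)
    · intro z hz
      rw [Subgroup.mem_subgroupOf] at hz
      have : q z ∈ zpowers (q x) := hy ▸ Subgroup.mem_map_of_mem q ⟨z.2, hz⟩
      obtain ⟨i, hi⟩ := mem_zpowers_iff.1 this
      have hm : z * (⟨x, hxH⟩ : H) ^ (-i) ∈ K.subgroupOf H := by
        rw [Subgroup.mem_subgroupOf]
        refine (QuotientGroup.eq_one_iff _).1 (?_ : q _ = 1)
        simp [map_zpow, ← hi]
      have := Subgroup.mul_mem_sup hm (Subgroup.zpow_mem (zpowers (⟨x, hxH⟩ : H)) (mem_zpowers _) i)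
      simpa using this
    · exact fun z hz => show (z : G) ∈ L from heq.symm ▸ (le_sup_left : K ≤ K ⊔ zpowers g) hz
    · rw [zpowers_le]; exact hxL

theorem of_subgroup (H : Subgroup G) (h : Cfsg.IsSupersolvable G) : Cfsg.IsSupersolvable H := by
  rw [reach_iff] at h ⊢
  simpa using h.subgroupOf H

theorem Reach.comap {Q : Type v} [Group Q] {f : G →* Q} (hf : Function.Surjective f)
    (hker : Reach G f.ker) {K : Subgroup Q} (h : Reach Q K) : Reach G (K.comap f) := by
  induction h with
  | bot => rwa [MonoidHom.comap_bot]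
  | step K L g _ hL heq ih =>
    obtain ⟨x, rfl⟩ := hf g
    refine Reach.step _ _ x ih (hL.comap f) ?_
    rw [heq]
    calc (K ⊔ zpowers (f x)).comap f = ((K.comap f ⊔ zpowers x).map f).comap f := by
          rw [Subgroup.map_sup, Subgroup.map_comap_eq_self_of_surjective hf, MonoidHom.map_zpowers]
      _ = K.comap f ⊔ zpowers x :=
          Subgroup.comap_map_eq_self ((Subgroup.ker_le_comap f K).trans le_sup_left)

theorem reach_of_cyclic (N : Subgroup G) [hN : N.Normal] [IsCyclic N] : Reach G N := by
  obtain ⟨g, hg⟩ := (Subgroup.isCyclic_iff_exists_zpowers_eq_top N).1 ‹_›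
  exact Reach.step ⊥ N g Reach.bot hN (by rw [bot_sup_eq, hg])

theorem of_extension (N : Subgroup G) [N.Normal] (hN : Reach G N)
    (h : Cfsg.IsSupersolvable (G ⧸ N)) : Cfsg.IsSupersolvable G := by
  rw [reach_iff] at h ⊢
  simpa using Reach.comap (QuotientGroup.mk'_surjective N) (by rwa [QuotientGroup.ker_mk']) h

theorem of_cyclic_normal (N : Subgroup G) [N.Normal] [IsCyclic N]
    (h : Cfsg.IsSupersolvable (G ⧸ N)) : Cfsg.IsSupersolvable G :=
  of_extension N (reach_of_cyclic N) h

theorem prod {H : Type v} [Group H] (hG : Cfsg.IsSupersolvable G) (hH : Cfsg.IsSupersolvable H) :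
    Cfsg.IsSupersolvable (G × H) := by
  have hl : ∀ K, Reach G K → Reach (G × H) (K.map (MonoidHom.inl G H)) := by
    intro K hK
    induction hK with
    | bot => rw [Subgroup.map_bot]; exact Reach.bot
    | step K L g _ hL heq ih =>
      refine Reach.step _ _ (g, 1) ih ?_ ?_
      · refine ⟨?_⟩
        rintro _ ⟨x, hx, rfl⟩ ⟨a, b⟩
        exact ⟨a * x * a⁻¹, hL.conj_mem x hx a, by simp⟩
      · rw [heq, Subgroup.map_sup, MonoidHom.map_zpowers]; rfl
  rw [reach_iff] at hG hH ⊢
  have hk : Reach (G × H) (MonoidHom.snd G H).ker := by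
    have : (MonoidHom.snd G H).ker = (⊤ : Subgroup G).map (MonoidHom.inl G H) := by
      ext ⟨a, b⟩
      simp [Subgroup.mem_prod, eq_comm]
    rw [this]; exact hl ⊤ hG
  simpa using Reach.comap (f := MonoidHom.snd G H) (fun b => ⟨(1, b), rfl⟩) hk hH

theorem of_subsingleton [Subsingleton G] : Cfsg.IsSupersolvable G := by
  rw [reach_iff, show (⊤ : Subgroup G) = ⊥ from Subsingleton.elim _ _]
  exact Reach.bot

/-- Subgroups of a cyclic normal subgroup are normal. -/
theorem normal_of_le_cyclic {N M : Subgroup G} (hN : N.Normal) (hc : IsCyclic N) (hM : M ≤ N) :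
    M.Normal := by
  obtain ⟨g, rfl⟩ := (Subgroup.isCyclic_iff_exists_zpowers_eq_top N).1 hc
  refine ⟨fun x hx a => ?_⟩
  obtain ⟨i, rfl⟩ := mem_zpowers_iff.1 (hM hx)
  obtain ⟨j, hj⟩ := mem_zpowers_iff.1 (hN.conj_mem g (mem_zpowers g) a)
  have : a * g ^ i * a⁻¹ = (g ^ i) ^ j := by
    rw [← conj_zpow, ← hj, ← zpow_mul, ← zpow_mul, mul_comm]
  rw [this]; exact zpow_mem hx j

theorem exists_prime_normal_of_cyclic [Finite G] {N : Subgroup G} (hN : N.Normal) (hc : IsCyclic N)
    (hne : N ≠ ⊥) :
    ∃ M : Subgroup G, M.Normal ∧ M ≤ N ∧ (Nat.card M).Prime := by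
  have h1 : Nat.card N ≠ 1 := fun h => hne (Subgroup.eq_bot_of_card_eq N h)
  obtain ⟨p, hp, hdvd⟩ := Nat.exists_prime_and_dvd h1
  haveI := Fact.mk hp
  obtain ⟨x, hx⟩ := exists_prime_orderOf_dvd_card' p hdvd
  have hxN : zpowers (x : G) ≤ N := by rw [zpowers_le]; exact x.2
  refine ⟨zpowers (x : G), normal_of_le_cyclic hN hc hxN, hxN, ?_⟩
  rw [Nat.card_zpowers, Subgroup.orderOf_coe, hx]; exact hp

theorem exists_prime_normal [Finite G] [Nontrivial G] (h : Cfsg.IsSupersolvable G) :
    ∃ M : Subgroup G, M.Normal ∧ (Nat.card M).Prime := by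
  have key : ∀ K, Reach G K → K ≠ ⊥ → ∃ M : Subgroup G, M.Normal ∧ (Nat.card M).Prime := by
    intro K hK
    induction hK with
    | bot => exact fun h => absurd rfl h
    | step K L g _ hL heq ih =>
      intro hne
      by_cases hK0 : K = ⊥
      · rw [hK0, bot_sup_eq] at heq
        subst heq
        obtain ⟨M, h1, _, h3⟩ := exists_prime_normal_of_cyclic hL inferInstance hne
        exact ⟨M, h1, h3⟩
      · exact ih hK0
  exact key ⊤ (reach_iff.1 h) top_ne_bot

theorem isCyclic_of_prime {M : Subgroup G} (h : (Nat.card M).Prime) : IsCyclic M :=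
  haveI := Fact.mk h; isCyclic_of_prime_card rfl

theorem card_quot_lt [Finite G] {M : Subgroup G} (h : (Nat.card M).Prime) :
    Nat.card (G ⧸ M) < Nat.card G := by
  rw [Subgroup.card_eq_card_quotient_mul_card_subgroup M]
  exact lt_mul_of_one_lt_right Nat.card_pos h.one_lt

/-- Recursion on groups: a class of groups closed under quotients all of whose nontrivial members
have a normal subgroup of prime order consists of supersolvable groups. -/
theorem of_class {P : ∀ (G : Type u) [Group G], Prop}
    (hq : ∀ (G : Type u) [Group G] [Finite G] (N : Subgroup G) [N.Normal], P G → P (G ⧸ N))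
    (hm : ∀ (G : Type u) [Group G] [Finite G] [Nontrivial G], P G →
      ∃ M : Subgroup G, M.Normal ∧ (Nat.card M).Prime)
    [Finite G] (h : P G) : Cfsg.IsSupersolvable G := by
  obtain ⟨n, hn⟩ : ∃ n, Nat.card G = n := ⟨_, rfl⟩
  induction n using Nat.strong_induction_on generalizing G with
  | _ n ih =>
    rcases subsingleton_or_nontrivial G with _ | _
    · exact of_subsingleton
    · obtain ⟨M, hM, hp⟩ := hm G h
      haveI := isCyclic_of_prime hp
      exact of_cyclic_normal M (ih _ (hn ▸ card_quot_lt hp) (hq G M h) rfl)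

theorem isSolvable [Finite G] (h : Cfsg.IsSupersolvable G) : Group.IsSolvable G := by
  obtain ⟨n, hn⟩ : ∃ n, Nat.card G = n := ⟨_, rfl⟩
  induction n using Nat.strong_induction_on generalizing G with
  | _ n ih =>
    rcases subsingleton_or_nontrivial G with _ | _
    · infer_instance
    · obtain ⟨M, hM, hp⟩ := exists_prime_normal h
      haveI := ih _ (hn ▸ card_quot_lt hp) (of_quotient M h) rfl
      haveI := isCyclic_of_prime hp
      haveI : Group.IsSolvable M := Group.isSolvable_of_comm (IsCyclic.commGroup (α := M)).mul_comm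
      exact Group.isSolvable_of_ker_le_range M.subtype (QuotientGroup.mk' M) (by simp)

theorem prime_index [Finite G] (h : Cfsg.IsSupersolvable G) (K : Subgroup G) (hK : IsCoatom K) :
    K.index.Prime := by
  obtain ⟨n, hn⟩ : ∃ n, Nat.card G = n := ⟨_, rfl⟩
  induction n using Nat.strong_induction_on generalizing G with
  | _ n ih =>
    rcases subsingleton_or_nontrivial G with _ | _
    · exact absurd (Subsingleton.elim K ⊤) hK.1
    · obtain ⟨M, hM, hp⟩ := exists_prime_normal h
      by_cases hle : M ≤ K
      · let q := QuotientGroup.mk' M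
        have hq : Function.Surjective q := QuotientGroup.mk'_surjective M
        have hker : q.ker ≤ K := by rwa [QuotientGroup.ker_mk']
        rw [← Subgroup.index_map_eq K hq hker]
        refine ih _ (hn ▸ card_quot_lt hp) (of_quotient M h) _ ⟨?_, fun L hL => ?_⟩ rfl
        · intro he
          apply hK.1
          rw [← Subgroup.comap_map_eq_self hker, he, Subgroup.comap_top]
        · have : K < L.comap q := by
            rw [← Subgroup.comap_map_eq_self hker]
            exact (Subgroup.comap_lt_comap_of_surjective hq).2 hL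
          rw [← Subgroup.map_comap_eq_self_of_surjective hq L, hK.2 _ this,
            Subgroup.map_top_of_surjective q hq]
      · haveI := Fact.mk hp
        have hbot : M ⊓ K = ⊥ := by
          rcases Subgroup.eq_bot_or_eq_top_of_prime_card ((M ⊓ K).subgroupOf M) with h1 | h1
          · rwa [Subgroup.subgroupOf_eq_bot, disjoint_iff, inf_assoc, inf_comm K M, ← inf_assoc,
              inf_idem] at h1
          · exact absurd ((Subgroup.subgroupOf_eq_top.1 h1).trans inf_le_right) hle
        have hsup : M ⊔ K = ⊤ := hK.2 _ (lt_of_le_of_ne le_sup_right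
          (fun e => hle (by rw [e]; exact le_sup_left)))
        rw [(Cfsg.Agent.Solv.isComplement'_of_inf_sup hbot hsup).index_eq_card]
        exact hp

theorem exists_normal_max_prime [Finite G] (h : Cfsg.IsSupersolvable G) {p : ℕ} (hp : p.Prime)
    (hdvd : p ∣ Nat.card G) (hmax : ∀ q : ℕ, q.Prime → q ∣ Nat.card G → q ≤ p) :
    ∃ M : Subgroup G, M.Normal ∧ Nat.card M = p := by
  obtain ⟨n, hn⟩ : ∃ n, Nat.card G = n := ⟨_, rfl⟩
  induction n using Nat.strong_induction_on generalizing G with
  | _ n ih =>
    haveI : Nontrivial G := by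
      rw [← Finite.one_lt_card_iff_nontrivial]
      exact lt_of_lt_of_le hp.one_lt (Nat.le_of_dvd Nat.card_pos hdvd)
    obtain ⟨M, hM, hq⟩ := exists_prime_normal h
    by_cases hqp : Nat.card M = p
    · exact ⟨M, hM, hqp⟩
    have hc := Subgroup.card_eq_card_quotient_mul_card_subgroup M
    have hpd : p ∣ Nat.card (G ⧸ M) := by
      rcases hp.dvd_mul.1 (hc ▸ hdvd) with h1 | h1
      · exact h1
      · exact absurd ((Nat.prime_dvd_prime_iff_eq hp hq).1 h1).symm hqp
    obtain ⟨L', hL', hLc⟩ := ih _ (hn ▸ card_quot_lt hq) (of_quotient M h) hpd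
      (fun r hr hrd => hmax r hr (hrd.trans (hc ▸ dvd_mul_right _ _))) rfl
    set L := L'.comap (QuotientGroup.mk' M) with hL
    haveI : L.Normal := hL'.comap _
    have hLcard : Nat.card L = p * Nat.card M := by
      have hi : L.index = L'.index :=
        Subgroup.index_comap_of_surjective L' (QuotientGroup.mk'_surjective M)
      have h1 := L.card_mul_index
      rw [hi, hc, ← L'.card_mul_index, hLc, mul_right_comm] at h1
      exact Nat.eq_of_mul_eq_mul_right (Nat.pos_of_ne_zero Subgroup.index_ne_zero_of_finite) h1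
    haveI := Fact.mk hp
    have hlt : Nat.card M < p :=
      lt_of_le_of_ne (hmax _ hq (hc ▸ dvd_mul_left _ _)) hqp
    obtain ⟨P⟩ := (inferInstance : Nonempty (Sylow p L))
    have hPc : Nat.card P = p := by
      rw [P.card_eq_multiplicity, hLcard, Nat.factorization_mul hp.ne_zero hq.ne_zero,
        Finsupp.add_apply, hp.factorization_self,
        Nat.factorization_eq_zero_of_not_dvd (fun hd => hqp ((Nat.prime_dvd_prime_iff_eq hp hq).1 hd).symm),
        pow_one]
    have hidx : (P : Subgroup L).index = Nat.card M := by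
      have := (P : Subgroup L).card_mul_index
      rw [hPc, hLcard] at this
      exact Nat.eq_of_mul_eq_mul_left hp.pos this
    have hone : Nat.card (Sylow p L) = 1 := by
      have h1 : Nat.card (Sylow p L) ∣ Nat.card M := hidx ▸ P.card_dvd_index
      have h2 := card_sylow_modEq_one p L
      rcases hq.eq_one_or_self_of_dvd _ h1 with h3 | h3
      · exact h3
      · rw [h3, Nat.ModEq, Nat.mod_eq_of_lt hlt, Nat.mod_eq_of_lt hp.one_lt] at h2
        exact absurd h2 hq.ne_one
    haveI : Subsingleton (Sylow p L) := (Nat.card_eq_one_iff_unique.1 hone).1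
    haveI : (P : Subgroup L).Normal := P.normal_of_subsingleton
    haveI : (P : Subgroup L).Characteristic := Sylow.characteristic_of_normal P inferInstance
    refine ⟨(P : Subgroup L).map L.subtype, ConjAct.normal_of_characteristic_of_normal, ?_⟩
    rw [Subgroup.card_map_of_injective L.subtype_injective]
    exact hPc

theorem sylow_max_normal [Finite G] (h : Cfsg.IsSupersolvable G) {p : ℕ} [hp : Fact p.Prime]
    (hmax : ∀ q : ℕ, q.Prime → q ∣ Nat.card G → q ≤ p) (P : Sylow p G) :
    (P : Subgroup G).Normal := by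
  obtain ⟨n, hn⟩ : ∃ n, Nat.card G = n := ⟨_, rfl⟩
  induction n using Nat.strong_induction_on generalizing G with
  | _ n ih =>
    by_cases hdvd : p ∣ Nat.card G
    · obtain ⟨M, hM, hMc⟩ := exists_normal_max_prime h hp.out hdvd hmax
      have hMp : IsPGroup p M := IsPGroup.of_card (n := 1) (by rw [hMc, pow_one])
      have hMP : M ≤ P := by
        haveI : (P : Subgroup G).FiniteIndex := inferInstance
        have hs : IsPGroup p (M ⊔ (P : Subgroup G) : Subgroup G) :=
          hMp.to_sup_of_normal_left P.isPGroup'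
        have := P.is_maximal' hs le_sup_right
        rw [← this]; exact le_sup_left
      let q := QuotientGroup.mk' M
      have hq : Function.Surjective q := QuotientGroup.mk'_surjective M
      have h1 := ih _ (hn ▸ card_quot_lt (hMc ▸ hp.out)) (of_quotient M h)
        (fun r hr hrd => hmax r hr (hrd.trans
          ((Subgroup.card_eq_card_quotient_mul_card_subgroup M) ▸ dvd_mul_right _ _)))
        (P.mapSurjective hq) rfl
      have h2 : ((P : Subgroup G).map q).comap q = P :=
        Subgroup.comap_map_eq_self (by rwa [QuotientGroup.ker_mk'])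
      rw [← h2]
      exact Subgroup.Normal.comap (by simpa using h1) q
    · have : (P : Subgroup G) = ⊥ := by
        apply Subgroup.eq_bot_of_card_eq
        rw [P.card_eq_multiplicity, Nat.factorization_eq_zero_of_not_dvd hdvd, pow_zero]
      rw [this]; infer_instance

end Cfsg.Agent.Solv.SSv
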