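import Mathlib
import Cfsg.Prelude.Def_SolvableStructure
import Cfsg.Agent.Solv.Supersolvable
import Cfsg.Agent.Solv.SchurZassenhaus
import Cfsg.Agent.Solv.Cores
import Cfsg.Agent.Solv.FrattiniFree

set_option autoImplicit false
set_option linter.style.haveILetI false

namespace Cfsg.Agent.Solv.SSv
open Subgroup
open scoped Pointwise
open scoped commutatorElement

universe u
variable {G : Type u} [Group G]

theorem exists_prime_normal_le [Finite G] (h : Cfsg.IsSupersolvable G) {N : Subgroup G}
    (hN : N.Normal) (hne : N ≠ ⊥) :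
    ∃ M : Subgroup G, M.Normal ∧ M ≤ N ∧ (Nat.card M).Prime := by
  have key : ∀ L, Reach G L → N ⊓ L ≠ ⊥ → ∃ M : Subgroup G, M.Normal ∧ M ≤ N ∧ (Nat.card M).Prime := by
    intro L hL
    induction hL with
    | bot => exact fun h => absurd (inf_bot_eq N) h
    | step K L g hK hLn heq ih =>
      intro hne
      by_cases hK0 : N ⊓ K = ⊥
      · haveI := hK.normal
        let q := QuotientGroup.mk' K
        have hle : L.map q ≤ zpowers (q g) := by
          rw [heq, Subgroup.map_sup, MonoidHom.map_zpowers]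
          refine sup_le (fun y hy => ?_) le_rfl
          obtain ⟨x, hx, rfl⟩ := hy
          rw [show q x = 1 from (QuotientGroup.eq_one_iff x).2 hx]
          exact one_mem _
        have hinj : Function.Injective (q.comp (N ⊓ L).subtype) := by
          rw [← MonoidHom.ker_eq_bot_iff, eq_bot_iff]
          intro x hx
          have h1 : (x : G) ∈ N ⊓ K := ⟨x.2.1, (QuotientGroup.eq_one_iff _).1 hx⟩
          rw [hK0, Subgroup.mem_bot] at h1
          exact Subgroup.mem_bot.2 (Subtype.ext h1)
        have hc : IsCyclic (N ⊓ L : Subgroup G) :=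
          isCyclic_of_injective ((q.comp (N ⊓ L).subtype).codRestrict (zpowers (q g))
            (fun x => hle (Subgroup.mem_map_of_mem q x.2.2)))
            (fun a b hab => hinj (congrArg Subtype.val hab))
        haveI := hN
        haveI := hLn
        obtain ⟨M, h1, h2, h3⟩ := exists_prime_normal_of_cyclic (N := N ⊓ L) inferInstance hc hne
        exact ⟨M, h1, h2.trans inf_le_left, h3⟩
      · exact ih hK0
  exact key ⊤ (reach_iff.1 h) (by rwa [inf_top_eq])

/-- Elements of the shape `g ^ (p - 1)` or `⁅g, h⁆`. -/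
def IsSpecial (p : ℕ) (c : G) : Prop := (∃ g, c = g ^ (p - 1)) ∨ ∃ g h : G, c = ⁅g, h⁆

theorem special_centralizes [Finite G] (h : Cfsg.IsSupersolvable G) {p : ℕ} (hp : p.Prime)
    (P : Subgroup G) (hP : P.Normal) (hPp : IsPGroup p P) {c : G} (hc : IsSpecial p c)
    (hcop : (orderOf c).Coprime p) : ∀ x ∈ P, c * x * c⁻¹ = x := by
  obtain ⟨n, hn⟩ : ∃ n, Nat.card G = n := ⟨_, rfl⟩
  induction n using Nat.strong_induction_on generalizing G with
  | _ n ih =>
    intro x hx
    by_cases hP0 : P = ⊥
    · rw [hP0, Subgroup.mem_bot] at hx; rw [hx, mul_one, mul_inv_cancel]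
    haveI := Fact.mk hp
    obtain ⟨M, hM, hMP, hMq⟩ := exists_prime_normal_le h hP hP0
    have hMc : Nat.card M = p := by
      obtain ⟨k, hk⟩ := IsPGroup.iff_card.1 (hPp.to_le hMP)
      rcases Nat.eq_zero_or_pos k with rfl | hk0
      · rw [hk, pow_zero] at hMq; exact absurd hMq Nat.not_prime_one
      · exact ((Nat.prime_dvd_prime_iff_eq hp hMq).1 (hk ▸ dvd_pow_self p hk0.ne')).symm
    -- `c` centralises `M`
    have hcM : ∀ m ∈ M, c * m * c⁻¹ = m := by
      haveI : IsCyclic M := isCyclic_of_prime hMq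
      obtain ⟨e⟩ : Nonempty (MulAut M ≃* (ZMod (Nat.card M))ˣ) :=
        ⟨IsCyclic.mulAutMulEquiv M⟩
      have h1 : MulAut.conjNormal (H := M) c = 1 := by
        apply e.injective
        rw [map_one]
        rcases hc with ⟨g, rfl⟩ | ⟨g, g', rfl⟩
        · rw [map_pow, map_pow]
          apply orderOf_dvd_iff_pow_eq_one.1
          refine (_root_.orderOf_dvd_natCard _).trans ?_
          haveI : NeZero (Nat.card M) := ⟨Nat.card_pos.ne'⟩
          rw [Nat.card_eq_fintype_card, ZMod.card_units_eq_totient, hMc, Nat.totient_prime hp]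
        · rw [map_commutatorElement, map_commutatorElement, commutatorElement_eq_one_iff_commute]
          exact Commute.all _ _
      intro m hm
      have := congrArg (fun φ : MulAut M => ((φ ⟨m, hm⟩ : M) : G)) h1
      simpa using this
    let q := QuotientGroup.mk' M
    have hq : Function.Surjective q := QuotientGroup.mk'_surjective M
    have hc' : IsSpecial p (q c) := by
      rcases hc with ⟨g, rfl⟩ | ⟨g, g', rfl⟩
      · exact Or.inl ⟨q g, map_pow q g _⟩
      · exact Or.inr ⟨q g, q g', map_commutatorElement q g g'⟩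
    have h2 := ih _ (hn ▸ card_quot_lt hMq) (of_quotient M h) (P.map q) (hP.map q hq) (hPp.map q)
      hc' (hcop.coprime_dvd_left (orderOf_map_dvd q c)) rfl (q x) (Subgroup.mem_map_of_mem q hx)
    have hmem : c * x * c⁻¹ * x⁻¹ ∈ M := by
      rw [← QuotientGroup.eq_one_iff]
      show q (c * x * c⁻¹ * x⁻¹) = 1
      rw [map_mul, map_mul, map_mul, map_inv, map_inv, h2, mul_inv_cancel]
    set m := c * x * c⁻¹ * x⁻¹ with hm
    have h3 : ∀ i : ℕ, c ^ i * x * (c ^ i)⁻¹ = m ^ i * x := by
      intro i
      induction i with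
      | zero => simp
      | succ i hi =>
        have h4 : c ^ (i + 1) * x * (c ^ (i + 1))⁻¹ = c * (c ^ i * x * (c ^ i)⁻¹) * c⁻¹ := by
          rw [pow_succ', mul_inv_rev]; group
        rw [h4, hi, show c * (m ^ i * x) * c⁻¹ = (c * m ^ i * c⁻¹) * (c * x * c⁻¹) by group,
          hcM _ (pow_mem hmem i), show c * x * c⁻¹ = m * x by rw [hm]; group, ← mul_assoc, pow_succ]
    have h5 := h3 (orderOf c)
    rw [pow_orderOf_eq_one, one_mul, inv_one, mul_one] at h5
    have h6 : m ^ orderOf c = 1 := (mul_eq_right.1 h5.symm)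
    have h7 : orderOf m ∣ p := hMc ▸ Subgroup.orderOf_dvd_natCard M hmem
    have h8 : orderOf m = 1 :=
      Nat.eq_one_of_dvd_coprimes hcop (orderOf_dvd_of_pow_eq_one h6) h7
    rw [orderOf_eq_one_iff] at h8
    exact mul_inv_eq_one.1 h8

/-- A linear map of period dividing `p - 1` over `ZMod p` has an eigenvector. -/
theorem exists_eigenvector {p : ℕ} [hp : Fact p.Prime] {V : Type u} [AddCommGroup V] [Module (ZMod p) V]
    (T : V →ₗ[ZMod p] V) (hper : ∀ v, (⇑T)^[p - 1] v = v) {v : V} (hv : v ≠ 0) :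
    ∃ a : ℕ, ∃ w : V, w ≠ 0 ∧ T w = a • w := by
  classical
  let w : (ZMod p)ˣ → V := fun a =>
    ∑ j ∈ Finset.range (p - 1), ((a : ZMod p) ^ j) • ((⇑T)^[j] v)
  have hw : ∀ a : (ZMod p)ˣ, (a : ZMod p) • T (w a) = w a := by
    intro a
    have h1 : (a : ZMod p) • T (w a) =
        ∑ j ∈ Finset.range (p - 1), ((a : ZMod p) ^ (j + 1)) • ((⇑T)^[j + 1] v) := by
      simp only [w, map_sum, Finset.smul_sum]
      refine Finset.sum_congr rfl fun j _ => ?_
      rw [map_smul, smul_smul, ← pow_succ', Function.iterate_succ_apply']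
    have h2 : (a : ZMod p) ^ (p - 1) = 1 := ZMod.pow_card_sub_one_eq_one a.ne_zero
    have h3 := (Finset.sum_range_succ (fun j => ((a : ZMod p) ^ j) • ((⇑T)^[j] v)) (p - 1)).symm.trans
      (Finset.sum_range_succ' _ (p - 1))
    rw [h2, one_smul, hper, pow_zero, one_smul, Function.iterate_zero_apply] at h3
    rw [h1]
    exact (add_right_cancel h3).symm
  by_cases hall : ∀ a, w a = 0
  · exfalso
    have h1 : ∑ a : (ZMod p)ˣ, w a = -v := by
      simp only [w]
      rw [Finset.sum_comm]
      simp only [← Finset.sum_smul]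
      have h2 : ∀ j ∈ Finset.range (p - 1), (∑ a : (ZMod p)ˣ, (a : ZMod p) ^ j) • ((⇑T)^[j] v) =
          if j = 0 then -v else 0 := by
        intro j hj
        have h3 := FiniteField.sum_pow_units (ZMod p) j
        rw [ZMod.card] at h3
        rw [show (∑ a : (ZMod p)ˣ, (a : ZMod p) ^ j) = _ from (by simpa using h3)]
        by_cases h0 : j = 0
        · simp [h0]
        · rw [if_neg h0, if_neg (fun hd => h0 (Nat.eq_zero_of_dvd_of_lt hd (Finset.mem_range.1 hj))),
            zero_smul]
      rw [Finset.sum_congr rfl h2]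
      simp [hp.out.one_lt]
    exact hv (neg_eq_zero.1 (h1.symm.trans (Finset.sum_eq_zero fun a _ => hall a)))
  · push Not at hall
    obtain ⟨a, ha⟩ := hall
    refine ⟨((a⁻¹ : (ZMod p)ˣ) : ZMod p).val, w a, ha, ?_⟩
    rw [← Nat.cast_smul_eq_nsmul (ZMod p), ZMod.natCast_zmod_val]
    conv_rhs => rw [← hw a, smul_smul, Units.inv_mul, one_smul]

/-- A map of exponent dividing `p - 1` on an elementary abelian `p`-group acts on some
nontrivial element as a power. -/
theorem exists_eigen [Finite G] {p : ℕ} (hp : p.Prime) {N : Subgroup G} [hN : N.Normal] (hne : N ≠ ⊥)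
    (hcomm : ∀ x ∈ N, ∀ y ∈ N, x * y = y * x) (hexp : ∀ x ∈ N, x ^ p = 1) {g : G}
    (hg : ∀ x ∈ N, g ^ (p - 1) * x * (g ^ (p - 1))⁻¹ = x) :
    ∃ a : ℕ, ∃ x ∈ N, x ≠ 1 ∧ g * x * g⁻¹ = x ^ a := by
  haveI := Fact.mk hp
  letI : CommGroup N := { (inferInstance : Group N) with mul_comm := fun x y => Subtype.ext (hcomm _ x.2 _ y.2) }
  have hsmul : ∀ x : Additive N, p • x = 0 := fun x => by
    refine Additive.toMul.injective (Subtype.ext ?_)
    simpa using hexp _ (Additive.toMul x).2
  letI inst : Module (ZMod p) (Additive N) := AddCommGroup.zmodModule hsmul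
  let F : Additive N →+ Additive N := (MulAut.conjNormal g : MulAut N).toMonoidHom.toAdditive
  have hF : ∀ (i : ℕ) (v : Additive N),
      ((Additive.toMul ((⇑F)^[i] v) : N) : G) =
        g ^ i * ((Additive.toMul v : N) : G) * (g ^ i)⁻¹ := by
    intro i
    induction i with
    | zero => intro v; simp
    | succ i hi =>
      intro v
      rw [Function.iterate_succ_apply']
      show g * ((Additive.toMul ((⇑F)^[i] v) : N) : G) * g⁻¹ = _
      rw [hi, pow_succ', mul_inv_rev]; group
  obtain ⟨x, hx, hx1⟩ := N.bot_or_exists_ne_one.resolve_left hne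
  obtain ⟨a, w, hw, hT⟩ := exists_eigenvector (F.toZModLinearMap p) (fun v => by
      refine Additive.toMul.injective (Subtype.ext ?_)
      exact (hF (p - 1) v).trans (hg _ (Additive.toMul v).2))
    (v := Additive.ofMul (⟨x, hx⟩ : N)) (fun h0 => hx1 (by
      have := congrArg (fun w : Additive N => ((Additive.toMul w : N) : G)) h0
      simpa using this))
  refine ⟨a, _, (Additive.toMul w).2, fun h0 => hw (Additive.toMul.injective (Subtype.ext (by simpa using h0))), ?_⟩
  have h5 := congrArg (fun y : Additive N => ((Additive.toMul y : N) : G)) hT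
  simpa [F] using h5

theorem normal_of_prime_index_aux [Finite G] (h : ∀ M : Subgroup G, IsCoatom M → M.index.Prime)
    {p : ℕ} [hp : Fact p.Prime] (hmax : ∀ q : ℕ, q.Prime → q ∣ Nat.card G → q ≤ p) (P : Sylow p G) :
    (P : Subgroup G).Normal := by
  by_contra hP
  obtain ⟨M, hM, hle⟩ := (eq_top_or_exists_le_coatom (Subgroup.normalizer ((P : Subgroup G) : Set G))).resolve_left
    (fun h => hP (Subgroup.normalizer_eq_top_iff.1 h))
  have hPM : (P : Subgroup G) ≤ M := Subgroup.le_normalizer.trans hle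
  have hq := h M hM
  have h1 : (Subgroup.normalizer ((P : Subgroup G) : Set G)).index ≡ 1 [MOD p] := by
    have := card_sylow_modEq_one p G
    rw [P.card_eq_index_normalizer] at this
    exact this
  have h2 : (Subgroup.normalizer ((P : Subgroup G) : Set G)).relIndex M ≡ 1 [MOD p] := by
    have h3 : Nat.card (Sylow p M) =
        ((Subgroup.normalizer ((P : Subgroup G) : Set G)).subgroupOf M).index := by
      rw [(P.subtype hPM).card_eq_index_normalizer, Subgroup.subgroupOf_normalizer_eq hPM]; rfl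
    have h4 := card_sylow_modEq_one p M
    rw [h3] at h4
    exact h4
  rw [← Subgroup.relIndex_mul_index hle] at h1
  have h5 : M.index ≡ 1 [MOD p] := by
    have := (h2.mul_right M.index).symm.trans h1
    rwa [one_mul] at this
  rcases (hmax _ hq M.index_dvd_card).lt_or_eq with hlt | heq
  · rw [Nat.ModEq, Nat.mod_eq_of_lt hlt, Nat.mod_eq_of_lt hp.out.one_lt] at h5
    exact hq.ne_one h5
  · rw [heq, Nat.ModEq, Nat.mod_self, Nat.mod_eq_of_lt hp.out.one_lt] at h5
    exact zero_ne_one h5

theorem prime_index_quotient (h : ∀ M : Subgroup G, IsCoatom M → M.index.Prime)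
    (N : Subgroup G) [N.Normal] : ∀ M : Subgroup (G ⧸ N), IsCoatom M → M.index.Prime := by
  intro M hM
  have hq : Function.Surjective (QuotientGroup.mk' N) := QuotientGroup.mk'_surjective _
  rw [← Subgroup.index_comap_of_surjective M hq]
  refine h _ ⟨fun he => hM.1 ?_, fun L hL => ?_⟩
  · rw [← Subgroup.map_comap_eq_self_of_surjective hq M, he, Subgroup.map_top_of_surjective _ hq]
  · have hker : (QuotientGroup.mk' N).ker ≤ L := (Subgroup.ker_le_comap _ _).trans hL.le
    have : M < L.map (QuotientGroup.mk' N) := by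
      rw [← Subgroup.comap_lt_comap_of_surjective hq, Subgroup.comap_map_eq_self hker]; exact hL
    rw [← Subgroup.comap_map_eq_self hker, hM.2 _ this, Subgroup.comap_top]

theorem quot_lt_of_ne_bot [Finite G] {N : Subgroup G} (hne : N ≠ ⊥) :
    Nat.card (G ⧸ N) < Nat.card G := by
  rw [Subgroup.card_eq_card_quotient_mul_card_subgroup N]
  exact lt_mul_of_one_lt_right Nat.card_pos ((Subgroup.one_lt_card_iff_ne_bot _).2 hne)

/-- Huppert's criterion. -/
theorem huppert [Finite G] (h : ∀ M : Subgroup G, IsCoatom M → M.index.Prime) :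
    Cfsg.IsSupersolvable G := by
  obtain ⟨n, hn⟩ : ∃ n, Nat.card G = n := ⟨_, rfl⟩
  induction n using Nat.strong_induction_on generalizing G with
  | _ n ih =>
    rcases subsingleton_or_nontrivial G with _ | _
    · exact of_subsingleton
    suffices ∃ N : Subgroup G, N.Normal ∧ (Nat.card N).Prime by
      obtain ⟨N, hN, hNp⟩ := this
      haveI := isCyclic_of_prime hNp
      exact of_cyclic_normal N (ih _ (hn ▸ card_quot_lt hNp) (prime_index_quotient h N) rfl)
    let S := (Nat.card G).primeFactors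
    have hne : S.Nonempty := by
      obtain ⟨q, hq, hqd⟩ := Nat.exists_prime_and_dvd (Finite.one_lt_card (α := G)).ne'
      exact ⟨q, Nat.mem_primeFactors.2 ⟨hq, hqd, Nat.card_pos.ne'⟩⟩
    obtain ⟨hp, hpd, -⟩ := Nat.mem_primeFactors.1 (S.max'_mem hne)
    set p := S.max' hne with hpdef
    haveI := Fact.mk hp
    obtain ⟨P⟩ := (inferInstance : Nonempty (Sylow p G))
    haveI hP : (P : Subgroup G).Normal := normal_of_prime_index_aux h
      (fun q hq hqd => S.le_max' q (Nat.mem_primeFactors.2 ⟨hq, hqd, Nat.card_pos.ne'⟩)) P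
    obtain ⟨N, hN, hNne, hNP, hmin⟩ := exists_minimal_normal hP (P.ne_bot_of_dvd_card hpd)
    have hNp : IsPGroup p N := P.isPGroup'.to_le hNP
    haveI : Group.IsNilpotent N := hNp.isNilpotent
    obtain ⟨hNc, r, hr, hrd, -, hexp⟩ := minimal_normal_solvable hN hNne hmin
    have hrp : r = p := by
      obtain ⟨k, hk⟩ := IsPGroup.iff_card.1 hNp
      exact (Nat.prime_dvd_prime_iff_eq hr hp).1 (hr.dvd_of_dvd_pow (hk ▸ hrd))
    subst hrp
    have hcomm : ∀ x ∈ N, ∀ y ∈ N, x * y = y * x := fun x hx y hy =>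
      congrArg Subtype.val (hNc.is_comm.comm (⟨x, hx⟩ : N) ⟨y, hy⟩)
    by_cases hΦ : ∃ M : Subgroup G, IsCoatom M ∧ ¬ N ≤ M
    · obtain ⟨M, hM, hNM⟩ := hΦ
      have hsup : N ⊔ M = ⊤ := hM.2 _ (lt_of_le_of_ne le_sup_right
        (fun e => hNM (by rw [e]; exact le_sup_left)))
      have hnorm : (N ⊓ M).Normal := by
        have : N ⊔ M ≤ Subgroup.normalizer ((N ⊓ M : Subgroup G) : Set G) := by
          refine sup_le (fun x hx => ?_) (fun x hx => ?_)
          · refine Subgroup.mem_normalizer_iff.2 fun y => ⟨fun hy => ?_, fun hy => ?_⟩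
            · rwa [hcomm x hx y hy.1, mul_inv_cancel_right]
            · have hy' : y ∈ N := by
                have := N.mul_mem (N.mul_mem (N.inv_mem hx) hy.1) hx
                simpa [mul_assoc] using this
              rwa [hcomm x hx y hy', mul_inv_cancel_right] at hy
          · refine Subgroup.mem_normalizer_iff.2 fun y => ⟨fun hy => ?_, fun hy => ?_⟩
            · exact ⟨hN.conj_mem y hy.1 x, M.mul_mem (M.mul_mem hx hy.2) (M.inv_mem hx)⟩
            · refine ⟨?_, ?_⟩
              · simpa [mul_assoc] using hN.conj_mem _ hy.1 x⁻¹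
              · simpa [mul_assoc] using M.mul_mem (M.mul_mem (M.inv_mem hx) hy.2) hx
        exact Subgroup.normalizer_eq_top_iff.1 (top_le_iff.1 (hsup ▸ this))
      rcases hmin _ hnorm inf_le_left with h0 | h0
      · refine ⟨N, hN, ?_⟩
        rw [← (isComplement'_of_inf_sup h0 hsup).index_eq_card]
        exact h M hM
      · exact absurd (h0 ▸ inf_le_right) hNM
    · push Not at hΦ
      obtain ⟨H, hH⟩ := Subgroup.exists_right_complement'_of_coprime (N := (P : Subgroup G)) P.card_coprime_index
      have hHcard : (Nat.card H).Coprime p := by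
        rw [← hH.symm.index_eq_card]
        exact (hp.coprime_iff_not_dvd.2 P.not_dvd_index).symm
      have hss : Cfsg.IsSupersolvable (G ⧸ N) :=
        ih _ (hn ▸ quot_lt_of_ne_bot hNne) (prime_index_quotient h N) rfl
      let D : Subgroup G :=
        { carrier := {d | d ∈ H ∧ ∀ x ∈ (P : Subgroup G), d * x * d⁻¹ * x⁻¹ ∈ N}
          mul_mem' := fun {a b} ha hb => ⟨mul_mem ha.1 hb.1, fun x hx => by
            have h1 := ha.2 _ (hP.conj_mem x hx b)
            have h2 := hb.2 x hx
            have := N.mul_mem h1 h2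
            have e : a * (b * x * b⁻¹) * a⁻¹ * (b * x * b⁻¹)⁻¹ * (b * x * b⁻¹ * x⁻¹) =
                (a * b) * x * (a * b)⁻¹ * x⁻¹ := by group
            rwa [e] at this⟩
          one_mem' := ⟨one_mem _, fun x _ => by simp⟩
          inv_mem' := fun {a} ha => ⟨inv_mem ha.1, fun x hx => by
            have h1 := ha.2 _ (hP.conj_mem x hx a⁻¹)
            have e : (a * (a⁻¹ * x * a⁻¹⁻¹) * a⁻¹ * (a⁻¹ * x * a⁻¹⁻¹)⁻¹)⁻¹ = a⁻¹ * x * a⁻¹⁻¹ * x⁻¹ := by
              group
            exact e ▸ inv_mem h1⟩ }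
      have hDH : D ≤ H := fun d hd => hd.1
      have hHD : ∀ g ∈ H, ∀ d ∈ D, g * d * g⁻¹ ∈ D := by
        intro g hg d hd
        refine ⟨mul_mem (mul_mem hg hd.1) (inv_mem hg), fun x hx => ?_⟩
        have h1 := hN.conj_mem _ (hd.2 _ (hP.conj_mem x hx g⁻¹)) g
        have e : g * (d * (g⁻¹ * x * g⁻¹⁻¹) * d⁻¹ * (g⁻¹ * x * g⁻¹⁻¹)⁻¹) * g⁻¹ =
            g * d * g⁻¹ * x * (g * d * g⁻¹)⁻¹ * x⁻¹ := by group
        rwa [e] at h1
      set X := D ⊔ N with hX
      have hXn : X.Normal := by
        rw [← Subgroup.normalizer_eq_top_iff, eq_top_iff, ← hH.sup_eq_top]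
        have hmul : ∀ y ∈ X, ∃ d ∈ D, ∃ z ∈ N, y = d * z := fun y hy => by
          rw [hX, ← SetLike.mem_coe, Subgroup.mul_normal D N] at hy
          obtain ⟨d, hd, z, hz, rfl⟩ := hy
          exact ⟨d, hd, z, hz, rfl⟩
        have hPX : ∀ g ∈ (P : Subgroup G), ∀ y ∈ X, g * y * g⁻¹ ∈ X := by
          intro g hg y hy
          obtain ⟨d, hd, z, hz, rfl⟩ := hmul y hy
          have h1 := hd.2 g hg
          have e : g * (d * z) * g⁻¹ = (g * d * g⁻¹ * d⁻¹) * d * (g * z * g⁻¹) := by group
          rw [e]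
          refine X.mul_mem (X.mul_mem (le_sup_right (a := D) ?_) (le_sup_left (b := N) hd))
            (le_sup_right (a := D) (hN.conj_mem z hz g))
          have e2 : g * d * g⁻¹ * d⁻¹ = (d * g * d⁻¹ * g⁻¹)⁻¹ := by group
          rw [e2]; exact inv_mem h1
        have hHX : ∀ g ∈ H, ∀ y ∈ X, g * y * g⁻¹ ∈ X := by
          intro g hg y hy
          obtain ⟨d, hd, z, hz, rfl⟩ := hmul y hy
          have e : g * (d * z) * g⁻¹ = (g * d * g⁻¹) * (g * z * g⁻¹) := by group
          rw [e]
          exact X.mul_mem (le_sup_left (b := N) (hHD g hg d hd)) (le_sup_right (a := D) (hN.conj_mem z hz g))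
        have hnz : ∀ K : Subgroup G, (∀ g ∈ K, ∀ y ∈ X, g * y * g⁻¹ ∈ X) →
            K ≤ Subgroup.normalizer (X : Set G) := by
          intro K hK g hg
          refine Subgroup.mem_normalizer_iff.2 fun y => ⟨fun hy => hK g hg y hy, fun hy => ?_⟩
          simpa [mul_assoc] using hK g⁻¹ (inv_mem hg) _ hy
        exact sup_le (hnz _ hPX) (hnz _ hHX)
      have hD : D.Normal := by
        rw [← Subgroup.normalizer_eq_top_iff]
        by_contra hne'
        obtain ⟨M, hM, hle⟩ := (eq_top_or_exists_le_coatom (Subgroup.normalizer (D : Set G))).resolve_left hne'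
        refine hM.1 (eq_top_iff.2 fun g _ => ?_)
        haveI : (N.subgroupOf X).Normal := hN.subgroupOf X
        have hNX : N ≤ X := le_sup_right
        have hDX : D ≤ X := le_sup_left
        set D' := MulAut.conj g • D with hD'
        have hD'X : D' ≤ X := by
          intro y hy
          rw [hD', mem_conj_smul] at hy
          have := hXn.conj_mem _ (hDX hy) g
          simpa [mul_assoc] using this
        have hsN : (D : Subgroup G).subgroupOf X ⊔ N.subgroupOf X = ⊤ := by
          rw [← Subgroup.subgroupOf_sup hDX hNX, Subgroup.subgroupOf_self]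
        have hsup' : D' ⊔ N = X := by
          have h1 : MulAut.conj g • (D ⊔ N) = D' ⊔ N := by
            rw [hD', Subgroup.smul_sup]
            congr 1
            ext y
            rw [mem_conj_smul]
            exact ⟨fun hy => by simpa [mul_assoc] using hN.conj_mem _ hy g, fun hy => by
              simpa using hN.conj_mem _ hy g⁻¹⟩
          rw [← h1, ← hX]
          ext y
          rw [mem_conj_smul]
          exact ⟨fun hy => by simpa [mul_assoc] using hXn.conj_mem _ hy g, fun hy => by
            simpa using hXn.conj_mem _ hy g⁻¹⟩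
        have hsN' : D'.subgroupOf X ⊔ N.subgroupOf X = ⊤ := by
          rw [← Subgroup.subgroupOf_sup hD'X hNX, hsup', Subgroup.subgroupOf_self]
        have hcN : ∀ E : Subgroup G, E ≤ X → Nat.card E ∣ Nat.card H →
            (Nat.card (E.subgroupOf X)).Coprime (Nat.card (N.subgroupOf X)) := by
          intro E hE hEd
          rw [Nat.card_congr (Subgroup.subgroupOfEquivOfLe hE).toEquiv,
            Nat.card_congr (Subgroup.subgroupOfEquivOfLe hNX).toEquiv]
          obtain ⟨k, hk⟩ := IsPGroup.iff_card.1 hNp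
          rw [hk]
          exact (hHcard.coprime_dvd_left hEd).pow_right k
        have hcD : Nat.card D' ∣ Nat.card H := by
          rw [hD', ← Nat.card_congr (Subgroup.equivSMul (MulAut.conj g) D).toEquiv]
          exact Subgroup.card_dvd_of_le hDH
        have hcop : (Nat.card (N.subgroupOf X)).Coprime (N.subgroupOf X).index := by
          refine (Nat.Coprime.coprime_dvd_right ?_ (hcN D hDX (Subgroup.card_dvd_of_le hDH)).symm)
          rw [show (N.subgroupOf X).index = (N.subgroupOf X).relIndex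
            ((D : Subgroup G).subgroupOf X ⊔ N.subgroupOf X) by rw [hsN, relIndex_top_right],
            Subgroup.relIndex_sup_right]
          exact Subgroup.relIndex_dvd_card _ _
        haveI : Group.IsNilpotent (N.subgroupOf X) :=
          (hNp.of_equiv (Subgroup.subgroupOfEquivOfLe hNX).symm).isNilpotent
        obtain ⟨y, hy, hyD⟩ := sz_conj (N.subgroupOf X) hcop (Or.inl inferInstance) hsN
          (hcN D hDX (Subgroup.card_dvd_of_le hDH)) hsN' (hcN D' hD'X hcD)
        have h2 := conj_of_conj_subgroupOf hDX hD'X hyD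
        have h3 : (y : G)⁻¹ * g ∈ Subgroup.normalizer (D : Set G) := by
          refine mem_normalizer_of_conj ?_
          rw [map_mul, mul_smul, ← hD', ← h2, smul_smul, ← map_mul, inv_mul_cancel, map_one, one_smul]
        have h4 : (y : G) ∈ M := hΦ M hM hy
        simpa using M.mul_mem h4 (hle h3)
      have hDP : ∀ d ∈ D, ∀ x ∈ (P : Subgroup G), d * x = x * d := by
        intro d hd x hx
        have h1 : d * x * d⁻¹ * x⁻¹ ∈ D := by
          rw [mul_assoc (d * x), mul_assoc d, ← mul_assoc x]
          exact D.mul_mem hd (hD.conj_mem _ (inv_mem hd) x)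
        have h2 : d * x * d⁻¹ * x⁻¹ ∈ H ⊓ (P : Subgroup G) :=
          ⟨hDH h1, (P : Subgroup G).mul_mem (hP.conj_mem x hx d) ((P : Subgroup G).inv_mem hx)⟩
        rw [inf_comm, hH.disjoint.eq_bot, Subgroup.mem_bot] at h2
        exact mul_inv_eq_iff_eq_mul.1 (mul_inv_eq_one.1 h2)
      have hspec : ∀ c ∈ H, IsSpecial p c → ∀ x ∈ (P : Subgroup G), c * x = x * c := by
        intro c hc hcs x hx
        refine hDP c ⟨hc, fun x hx => ?_⟩ x hx
        let q := QuotientGroup.mk' N
        have hc' : IsSpecial p (q c) := by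
          rcases hcs with ⟨g, rfl⟩ | ⟨g, g', rfl⟩
          · exact Or.inl ⟨q g, map_pow q g _⟩
          · exact Or.inr ⟨q g, q g', map_commutatorElement q g g'⟩
        have hco : (orderOf (q c)).Coprime p :=
          (hHcard.coprime_dvd_left (Subgroup.orderOf_dvd_natCard H hc)).coprime_dvd_left (orderOf_map_dvd q c)
        have h1 := special_centralizes hss hp ((P : Subgroup G).map q)
          (hP.map q (QuotientGroup.mk'_surjective N)) (P.isPGroup'.map q) hc' hco (q x) (Subgroup.mem_map_of_mem q hx)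
        rw [← QuotientGroup.eq_one_iff]
        show q (c * x * c⁻¹ * x⁻¹) = 1
        rw [map_mul, map_mul, map_mul, map_inv, map_inv, h1, mul_inv_cancel]
      -- `P` centralises `N`
      have hPN : ∀ x ∈ (P : Subgroup G), ∀ y ∈ N, x * y = y * x := by
        haveI : Group.IsNilpotent (P : Subgroup G) := P.isPGroup'.isNilpotent
        have hn1 : (N ⊓ Subgroup.centralizer ((P : Subgroup G) : Set G)).Normal := inferInstance
        rcases hmin _ hn1 inf_le_left with h0 | h0
        · exfalso
          haveI : Nontrivial (N.subgroupOf (P : Subgroup G)) :=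
            (Subgroup.nontrivial_iff_ne_bot _).2 (fun e => hNne (by
              rw [← Subgroup.map_subgroupOf_eq_of_le hNP, e, Subgroup.map_bot]))
          have hpd' : p ∣ Nat.card (N.subgroupOf (P : Subgroup G)) := by
            rw [Nat.card_congr (Subgroup.subgroupOfEquivOfLe hNP).toEquiv]; exact hrd
          obtain ⟨z, hz, hz1⟩ := (P.isPGroup'.of_equiv ConjAct.toConjAct).exists_fixed_point_of_prime_dvd_card_of_fixed_point
            (N.subgroupOf (P : Subgroup G)) hpd' (a := 1) (fun γ => by exact smul_one γ)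
          have hzm : ((z : (P : Subgroup G)) : G) ∈ N ⊓ Subgroup.centralizer ((P : Subgroup G) : Set G) := by
            refine ⟨z.2, Subgroup.mem_centralizer_iff.2 fun x hx => ?_⟩
            have h1 : x * ((z : (P : Subgroup G)) : G) * x⁻¹ = ((z : (P : Subgroup G)) : G) :=
              congrArg (fun w : N.subgroupOf (P : Subgroup G) => ((w : (P : Subgroup G)) : G))
                (hz (ConjAct.toConjAct ⟨x, hx⟩))
            exact mul_inv_eq_iff_eq_mul.1 h1
          rw [h0, Subgroup.mem_bot] at hzm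
          exact hz1 (Subtype.ext (Subtype.ext hzm.symm))
        · intro x hx y hy
          have h1 : y ∈ N ⊓ Subgroup.centralizer ((P : Subgroup G) : Set G) := by rw [h0]; exact hy
          exact Subgroup.mem_centralizer_iff.1 h1.2 x hx
      have hcov : ∀ g : G, ∃ x ∈ (P : Subgroup G), ∃ k ∈ H, g = x * k := fun g => by
        have hg : g ∈ (((P : Subgroup G) ⊔ H : Subgroup G) : Set G) := by rw [hH.sup_eq_top]; trivial
        rw [Subgroup.normal_mul] at hg
        obtain ⟨x, hx, k, hk, rfl⟩ := hg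
        exact ⟨x, hx, k, hk, rfl⟩
      -- every element of `H` acts on `N` as a power
      have hpow : ∀ g ∈ H, ∃ a : ℕ, ∀ y ∈ N, g * y * g⁻¹ = y ^ a := by
        intro g hg
        haveI := hN
        obtain ⟨a, x, hx, hx1, hxa⟩ := exists_eigen hp hNne hcomm hexp (g := g) (fun y hy => by
          rw [hspec _ (pow_mem hg _) (Or.inl ⟨g, rfl⟩) y (hNP hy), mul_inv_cancel_right])
        refine ⟨a, ?_⟩
        let E : Subgroup G :=
          { carrier := {y | y ∈ N ∧ g * y * g⁻¹ = y ^ a}
            mul_mem' := fun {y z} hy hz => ⟨mul_mem hy.1 hz.1, by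
              rw [(show Commute y z from hcomm y hy.1 z hz.1).mul_pow, ← hy.2, ← hz.2]; group⟩
            one_mem' := ⟨one_mem _, by simp⟩
            inv_mem' := fun {y} hy => ⟨inv_mem hy.1, by rw [inv_pow, ← hy.2]; group⟩ }
        have hEn : E.Normal := by
          refine ⟨fun y hy t => ?_⟩
          obtain ⟨u, hu, k, hk, rfl⟩ := hcov t
          have e1 : u * k * y * (u * k)⁻¹ = k * y * k⁻¹ := by
            have e0 : u * k * y * (u * k)⁻¹ = u * (k * y * k⁻¹) * u⁻¹ := by group
            rw [e0, hPN u hu _ (hN.conj_mem y hy.1 k), mul_inv_cancel_right]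
          rw [e1]
          refine ⟨hN.conj_mem y hy.1 k, ?_⟩
          have hc := hspec ⁅g, k⁆ (mul_mem (mul_mem (mul_mem hg hk) (inv_mem hg)) (inv_mem hk))
            (Or.inr ⟨g, k, rfl⟩) (k * (g * y * g⁻¹) * k⁻¹) (hNP (hN.conj_mem _ (hN.conj_mem y hy.1 g) k))
          calc g * (k * y * k⁻¹) * g⁻¹
              = (⁅g, k⁆ * (k * (g * y * g⁻¹) * k⁻¹)) * ⁅g, k⁆⁻¹ := by
                rw [commutatorElement_def]; group
            _ = k * (g * y * g⁻¹) * k⁻¹ := by rw [hc, mul_inv_cancel_right]
            _ = (k * y * k⁻¹) ^ a := by rw [hy.2, conj_pow]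
        rcases hmin E hEn (fun y hy => hy.1) with h0 | h0
        · exact absurd (Subgroup.mem_bot.1 (h0 ▸ (⟨hx, hxa⟩ : x ∈ E))) hx1
        · intro y hy
          exact (h0.symm ▸ hy : y ∈ E).2
      obtain ⟨x, hx, hx1⟩ := N.bot_or_exists_ne_one.resolve_left hNne
      have hZ : (Subgroup.zpowers x).Normal := by
        refine ⟨fun y hy t => ?_⟩
        obtain ⟨i, rfl⟩ := Subgroup.mem_zpowers_iff.1 hy
        obtain ⟨u, hu, k, hk, rfl⟩ := hcov t
        obtain ⟨a, ha⟩ := hpow k hk
        have e0 : u * k * x ^ i * (u * k)⁻¹ = u * (k * x ^ i * k⁻¹) * u⁻¹ := by group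
        rw [e0, ha _ (zpow_mem hx i), hPN u hu _ (pow_mem (zpow_mem hx i) a), mul_inv_cancel_right]
        exact pow_mem (zpow_mem (Subgroup.mem_zpowers x) i) a
      refine ⟨Subgroup.zpowers x, hZ, ?_⟩
      rw [Nat.card_zpowers, orderOf_eq_prime (hexp x hx) hx1]
      exact hp

end Cfsg.Agent.Solv.SSv
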