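import Mathlib
import Cfsg.Prelude.Def_SolvableStructure
import Cfsg.Agent.Solv.Hall
import Cfsg.Agent.Solv.HallSystem
import Cfsg.Agent.Solv.Cores
import Cfsg.Agent.Solv.SchurZassenhaus

/-! System normalizers. -/

set_option autoImplicit false
set_option linter.style.haveILetI false

namespace Cfsg.Agent.Solv.SysNorm
open Subgroup
open scoped Pointwise commutatorElement

universe u
variable {G : Type u} [Group G]

theorem exists_mem_cosets [Finite G] {ι : Type*} [DecidableEq ι] (K : ι → Subgroup G) (c : ι → G) (T : Finset ι)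
    (hcop : ∀ i ∈ T, ∀ j ∈ T, i ≠ j → (K i).index.Coprime (K j).index) :
    ∃ g : G, ∀ i ∈ T, (c i)⁻¹ * g ∈ K i := by
  suffices key : ∀ U : Finset ι, U ⊆ T → ∃ g : G, (∀ i ∈ U, (c i)⁻¹ * g ∈ K i) ∧
      ∀ q ∈ T, q ∉ U → (U.inf K).index.Coprime (K q).index by
    obtain ⟨g, hg, -⟩ := key T (subset_refl T)
    exact ⟨g, hg⟩
  intro U
  induction U using Finset.induction_on with
  | empty => exact fun _ => ⟨1, by simp, fun q _ _ => by simp⟩
  | @insert a U ha ih =>
    intro hU
    obtain ⟨g, hg, hc⟩ := ih ((Finset.subset_insert a U).trans hU)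
    have haT : a ∈ T := hU (Finset.mem_insert_self a U)
    obtain ⟨x, hx, y, hy, hxy⟩ := mem_mul_of_coprime_index (hc a haT ha) (g⁻¹ * c a)
    refine ⟨g * x, fun p hp => ?_, fun q hqT hq => ?_⟩
    · rcases Finset.mem_insert.1 hp with rfl | hp
      · have : (c p)⁻¹ * (g * x) = y⁻¹ := by
          rw [show c p = g * (g⁻¹ * c p) by group, hxy]; group
        rw [this]; exact (K p).inv_mem hy
      · rw [← mul_assoc]
        exact (K p).mul_mem (hg p hp) ((Finset.inf_le hp : U.inf K ≤ K p) hx)
    · rw [Finset.inf_insert, index_inf_of_coprime (hc a haT ha).symm]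
      exact Nat.Coprime.mul_left (hcop a haT q hqT (fun e => hq (Finset.mem_insert.2 (Or.inl e.symm))))
        (hc q hqT (fun h => hq (Finset.mem_insert_of_mem h)))

theorem index_inf_finset [Finite G] {ι : Type*} [DecidableEq ι] (K : ι → Subgroup G) (T : Finset ι)
    (hcop : ∀ i ∈ T, ∀ j ∈ T, i ≠ j → (K i).index.Coprime (K j).index) :
    (T.inf K).index = ∏ i ∈ T, (K i).index := by
  induction T using Finset.induction_on with
  | empty => simp
  | @insert a T ha ih =>
    have hT : ∀ i ∈ T, ∀ j ∈ T, i ≠ j → (K i).index.Coprime (K j).index :=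
      fun i hi j hj => hcop i (Finset.mem_insert_of_mem hi) j (Finset.mem_insert_of_mem hj)
    have hco : (K a).index.Coprime (T.inf K).index := by
      rw [ih hT]
      exact Nat.Coprime.prod_right fun i hi => hcop a (Finset.mem_insert_self a T) i
        (Finset.mem_insert_of_mem hi) (fun e => ha (e ▸ hi))
    rw [Finset.inf_insert, index_inf_of_coprime hco, ih hT, Finset.prod_insert ha]

variable {K : Nat.Primes → Subgroup G}

theorem coprime_index [Finite G] (hK : Cfsg.IsComplementSystem K) {p q : Nat.Primes} (h : p ≠ q) :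
    (K p).index.Coprime (K q).index := by
  rw [hK p, hK q]
  exact ((Nat.coprime_primes p.2 q.2).2 (fun e => h (Subtype.ext e))).pow _ _

theorem not_dvd_card [Finite G] (hK : Cfsg.IsComplementSystem K) (p : Nat.Primes) :
    ¬ (p : ℕ) ∣ Nat.card (K p) := by
  intro hd
  have h1 : (p : ℕ) ^ ((Nat.card G).factorization p + 1) ∣ Nat.card G := by
    conv_rhs => rw [← (K p).card_mul_index, hK p]
    rw [pow_succ']; exact Nat.mul_dvd_mul_right hd _
  exact Nat.pow_succ_factorization_not_dvd Nat.card_pos.ne' p.2 h1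

/-- A subgroup normalising `K p` has `p`-power order modulo `K p`. -/
theorem mem_of_coprime [Finite G] (hK : Cfsg.IsComplementSystem K) (p : Nat.Primes) {g : G}
    (hg : g ∈ Subgroup.normalizer (K p : Set G)) (ho : (orderOf g).Coprime p) : g ∈ K p := by
  let N := Subgroup.normalizer (K p : Set G)
  haveI : ((K p).subgroupOf N).Normal := Subgroup.normal_in_normalizer
  have h1 : orderOf (QuotientGroup.mk' ((K p).subgroupOf N) ⟨g, hg⟩) ∣ (p : ℕ) ^ (Nat.card G).factorization p := by
    refine (_root_.orderOf_dvd_natCard _).trans ?_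
    rw [← Subgroup.index_eq_card, ← hK p]
    exact Subgroup.relIndex_dvd_index_of_le Subgroup.le_normalizer
  have h2 : orderOf (QuotientGroup.mk' ((K p).subgroupOf N) ⟨g, hg⟩) ∣ orderOf g :=
    (orderOf_map_dvd _ _).trans (by rw [Subgroup.orderOf_mk])
  have h3 := Nat.eq_one_of_dvd_coprimes (ho.pow_right _) h2 h1
  exact Subgroup.mem_subgroupOf.1
    ((QuotientGroup.eq_one_iff (⟨g, hg⟩ : N)).1 (orderOf_eq_one_iff.1 h3))

theorem isNilpotent [Finite G] (hK : Cfsg.IsComplementSystem K) :
    Group.IsNilpotent (Cfsg.systemNormalizer K) := by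
  classical
  set D := Cfsg.systemNormalizer K with hD
  have hDN : ∀ p, D ≤ Subgroup.normalizer (K p : Set G) := fun p => iInf_le _ p
  let S := {p : Nat.Primes // (p : ℕ) ∈ (Nat.card G).primeFactors}
  haveI : Finite S := Finite.of_injective (fun s : S => (⟨(s.1 : ℕ), s.2⟩ : {n : ℕ // n ∈ (Nat.card G).primeFactors}))
    (fun a b h => Subtype.ext (Subtype.ext (congrArg (fun z : {n : ℕ // n ∈ (Nat.card G).primeFactors} => z.1) h)))
  haveI hn : ∀ s : S, ((K s.1).subgroupOf D).Normal := fun s =>
    Subgroup.normal_subgroupOf_of_le_normalizer (hDN s.1)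
  haveI : ∀ s : S, Group.IsNilpotent (D ⧸ (K s.1).subgroupOf D) := fun s => by
    haveI := Fact.mk s.1.2
    have hdvd : Nat.card (D ⧸ (K s.1).subgroupOf D) ∣ (s.1 : ℕ) ^ (Nat.card G).factorization s.1 := by
      rw [← hK s.1, ← Subgroup.index_eq_card]
      have h1 := Subgroup.relIndex_dvd_index_of_le (H := K s.1) (K := Subgroup.normalizer (K s.1 : Set G)) Subgroup.le_normalizer
      have h2 : (K s.1).relIndex D ∣ (K s.1).relIndex (Subgroup.normalizer (K s.1 : Set G)) := by
        haveI : ((K s.1).subgroupOf (Subgroup.normalizer (K s.1 : Set G))).Normal := Subgroup.normal_in_normalizer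
        rw [← Subgroup.relIndex_subgroupOf (H := K s.1) (hDN s.1)]
        exact Subgroup.relIndex_dvd_index_of_normal ((K s.1).subgroupOf _) (D.subgroupOf _)
      exact h2.trans h1
    obtain ⟨k, -, hk⟩ := (Nat.dvd_prime_pow s.1.2).1 hdvd
    exact (IsPGroup.of_card hk).isNilpotent
  let f : D →* (∀ s : S, D ⧸ (K s.1).subgroupOf D) := Pi.monoidHom fun s => QuotientGroup.mk' _
  have hf : Function.Injective f := by
    rw [← MonoidHom.ker_eq_bot_iff, eq_bot_iff]
    intro x hx
    refine Subgroup.mem_bot.2 (orderOf_eq_one_iff.1 ?_)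
    by_contra hne
    obtain ⟨q, hq, hqd⟩ := Nat.exists_prime_and_dvd hne
    rw [← Subgroup.orderOf_coe] at hqd
    have hqG : q ∈ (Nat.card G).primeFactors :=
      Nat.mem_primeFactors.2 ⟨hq, hqd.trans (_root_.orderOf_dvd_natCard _), Nat.card_pos.ne'⟩
    haveI := hn ⟨⟨q, hq⟩, hqG⟩
    have hx' : (QuotientGroup.mk' ((K ⟨q, hq⟩).subgroupOf D)) x = 1 := congrFun hx ⟨⟨q, hq⟩, hqG⟩
    have h5 : (x : G) ∈ K ⟨q, hq⟩ := Subgroup.mem_subgroupOf.1 ((QuotientGroup.eq_one_iff x).1 hx')
    exact not_dvd_card hK ⟨q, hq⟩ (hqd.trans (Subgroup.orderOf_dvd_natCard _ h5))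
  exact Subgroup.isNilpotent_of_ker_le_center f (by rw [(MonoidHom.ker_eq_bot_iff f).2 hf]; exact bot_le)

theorem comap_le_image [Finite G] [Group.IsSolvable G] (hK : Cfsg.IsComplementSystem K) (N : Subgroup G) [N.Normal] :
    Cfsg.IsComplementSystem (fun p => (K p).map (QuotientGroup.mk' N)) ∧
      Cfsg.systemNormalizer (fun p => (K p).map (QuotientGroup.mk' N)) =
        (Cfsg.systemNormalizer K).map (QuotientGroup.mk' N) := by
  classical
  let q := QuotientGroup.mk' N
  have hq : Function.Surjective q := QuotientGroup.mk'_surjective N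
  have hidx : ∀ p : Nat.Primes, ((K p).map q).index = (p : ℕ) ^ (Nat.card (G ⧸ N)).factorization p := by
    intro p
    haveI := Fact.mk p.2
    obtain ⟨j, -, hj⟩ := (Nat.dvd_prime_pow p.2).1 (hK p ▸ Subgroup.index_map_dvd (K p) hq)
    have hnd : ¬ (p : ℕ) ∣ Nat.card ((K p).map q) := fun hd =>
      not_dvd_card hK p (hd.trans (Subgroup.card_dvd_of_surjective _ (q.subgroupMap_surjective (K p))))
    rw [hj, ← ((K p).map q).card_mul_index, Nat.factorization_mul Nat.card_pos.ne' Subgroup.index_ne_zero_of_finite,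
      Finsupp.add_apply, Nat.factorization_eq_zero_of_not_dvd hnd, zero_add, hj, p.2.factorization_pow,
      Finsupp.single_eq_same]
  refine ⟨hidx, le_antisymm ?_ ?_⟩
  · intro y hy
    obtain ⟨g, rfl⟩ := hq y
    rw [Cfsg.systemNormalizer, Subgroup.mem_iInf] at hy
    have hc : ∀ p : Nat.Primes, ∃ n ∈ N, g * n ∈ Subgroup.normalizer (K p : Set G) := by
      intro p
      set L := ((K p).map q).comap q with hL
      have hKL : K p ≤ L := Subgroup.le_comap_map _ _
      have hgK : MulAut.conj g⁻¹ • K p ≤ L := by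
        intro x hx
        rw [mem_conj_smul, inv_inv] at hx
        show q x ∈ (K p).map q
        have h1 := (Subgroup.mem_normalizer_iff''.1 (hy p) _).1 (Subgroup.mem_map_of_mem q hx)
        rw [← map_inv, ← map_mul, ← map_mul] at h1
        simpa [q, mul_assoc] using h1
      have hLc : (Nat.card (K p)).Coprime ((K p).relIndex L) := by
        refine Nat.Coprime.coprime_dvd_right (Subgroup.relIndex_dvd_index_of_le hKL) ?_
        rw [hK p]
        exact ((p.2.coprime_iff_not_dvd.2 (not_dvd_card hK p)).symm).pow_right _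
      obtain ⟨l, hl⟩ := hall_conj (G := L) (m := Nat.card (K p)) (n := (K p).relIndex L) (by
          have h2 := ((K p).subgroupOf L).card_mul_index
          rw [Nat.card_congr (Subgroup.subgroupOfEquivOfLe hKL).toEquiv] at h2
          exact h2.symm) hLc
        (H := (MulAut.conj g⁻¹ • K p).subgroupOf L) (K := (K p).subgroupOf L) (by
          rw [Nat.card_congr (Subgroup.subgroupOfEquivOfLe hgK).toEquiv]
          exact (Nat.card_congr (Subgroup.equivSMul (MulAut.conj g⁻¹) (K p)).toEquiv).symm)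
        (Nat.card_congr (Subgroup.subgroupOfEquivOfLe hKL).toEquiv)
      have h3 := conj_of_conj_subgroupOf hgK hKL hl
      have hl' : (l : G) ∈ ((K p ⊔ N : Subgroup G) : Set G) := by
        have : (l : G) ∈ ((K p).map q).comap q := l.2
        rwa [Subgroup.comap_map_eq, QuotientGroup.ker_mk'] at this
      rw [Subgroup.mul_normal] at hl'
      obtain ⟨k, hk, n, hn, hkn⟩ := hl'
      refine ⟨n⁻¹, N.inv_mem hn, ?_⟩
      have h4 : (l : G) * g⁻¹ ∈ Subgroup.normalizer (K p : Set G) :=
        mem_normalizer_of_conj (by rw [map_mul, mul_smul]; exact h3)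
      have h5 : k⁻¹ * ((l : G) * g⁻¹) ∈ Subgroup.normalizer (K p : Set G) :=
        mul_mem (inv_mem (Subgroup.le_normalizer hk)) h4
      have e : g * n⁻¹ = (k⁻¹ * ((l : G) * g⁻¹))⁻¹ := by rw [← hkn]; group
      rw [e]; exact inv_mem h5
    choose c hcN hc using hc
    let S : Finset Nat.Primes := (Nat.card G).primeFactors.subtype Nat.Prime
    obtain ⟨n, hn⟩ := exists_mem_cosets (G := N) (fun p : Nat.Primes => (K p).subgroupOf N)
      (fun p => (⟨c p, hcN p⟩ : N)) S (fun i _ j _ hij =>
        ((coprime_index hK hij).coprime_dvd_left (relIndex_dvd_of_normal' (K i) N)).coprime_dvd_right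
          (relIndex_dvd_of_normal' (K j) N))
    refine ⟨g * (n : G), ?_, by
      show q (g * (n : G)) = q g
      rw [map_mul, show q (n : G) = 1 from (QuotientGroup.eq_one_iff _).2 n.2, mul_one]⟩
    rw [SetLike.mem_coe, Cfsg.systemNormalizer, Subgroup.mem_iInf]
    intro p
    by_cases hp : p ∈ S
    · have h1 : (c p)⁻¹ * (n : G) ∈ K p := Subgroup.mem_subgroupOf.1 (hn p hp)
      rw [show g * (n : G) = (g * c p) * ((c p)⁻¹ * (n : G)) by group]
      exact mul_mem (hc p) (Subgroup.le_normalizer h1)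
    · have hnd : ¬ (p : ℕ) ∣ Nat.card G := fun hd => hp (Finset.mem_subtype.2 (Nat.mem_primeFactors.2 ⟨p.2, hd, Nat.card_pos.ne'⟩))
      have : K p = ⊤ := Subgroup.index_eq_one.1 (by rw [hK p, Nat.factorization_eq_zero_of_not_dvd hnd, pow_zero])
      rw [this, Subgroup.normalizer_eq_top]
      exact Subgroup.mem_top _
  · refine le_iInf fun p => ?_
    refine (Subgroup.map_mono (iInf_le _ p)).trans ?_
    exact Subgroup.le_normalizer_map q
where
  relIndex_dvd_of_normal' {G : Type u} [Group G] [Finite G] (H N : Subgroup G) [N.Normal] : H.relIndex N ∣ H.index := by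
    have h1 := Subgroup.relIndex_mul_index (le_sup_left : H ≤ H ⊔ N)
    have h2 : H.relIndex N ∣ H.relIndex (H ⊔ N) := by
      have e1 := Subgroup.relIndex_mul_relIndex (H ⊓ N) H (H ⊔ N) inf_le_left le_sup_left
      have e2 := Subgroup.relIndex_mul_relIndex (H ⊓ N) N (H ⊔ N) inf_le_right le_sup_right
      rw [Subgroup.inf_relIndex_left] at e1
      rw [Subgroup.inf_relIndex_right, Subgroup.relIndex_sup_right] at e2
      rw [← e2] at e1
      by_cases h0 : N.relIndex H = 0
      · exact absurd h0 Subgroup.index_ne_zero_of_finite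
      · exact dvd_of_eq ((Nat.eq_of_mul_eq_mul_left (Nat.pos_of_ne_zero h0) (e1.trans (mul_comm _ _))).symm)
    exact h2.trans ⟨_, h1.symm⟩

end Cfsg.Agent.Solv.SysNorm
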