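import Mathlib
import Cfsg.Prelude.Def_Solvable
import Cfsg.Prelude.Def_Transfer
import Cfsg.Agent.Solv.Cores
import Cfsg.Agent.Solv.SchurZassenhaus
import Cfsg.Agent.Solv.FrattiniFree

set_option autoImplicit false
set_option linter.style.haveILetI false

namespace Cfsg.Agent.Solv.Prim
open Subgroup
open scoped Pointwise

universe u
variable {G : Type u} [Group G]

theorem eq_bot_of_normal_le {U : Subgroup G} (hcore : U.normalCore = ⊥) {K : Subgroup G}
    (hK : K.Normal) (hle : K ≤ U) : K = ⊥ :=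
  haveI := hK; le_bot_iff.1 (hcore ▸ Subgroup.normal_le_normalCore.2 hle)

theorem sup_eq_top {U : Subgroup G} (hU : IsCoatom U) (hcore : U.normalCore = ⊥) {N : Subgroup G}
    (hN : N.Normal) (hne : N ≠ ⊥) : N ⊔ U = ⊤ :=
  hU.2 _ (lt_of_le_of_ne le_sup_right (fun e => hne (eq_bot_of_normal_le hcore hN (e.symm ▸ le_sup_left))))

theorem cover {U : Subgroup G} (hU : IsCoatom U) (hcore : U.normalCore = ⊥) {N : Subgroup G}
    (hN : N.Normal) (hne : N ≠ ⊥) (g : G) : ∃ n ∈ N, ∃ u ∈ U, g = n * u := by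
  have hg : g ∈ ((N ⊔ U : Subgroup G) : Set G) := by rw [sup_eq_top hU hcore hN hne]; trivial
  rw [Subgroup.normal_mul] at hg
  obtain ⟨n, hn, u, hu, rfl⟩ := hg
  exact ⟨n, hn, u, hu, rfl⟩

theorem centralizer_inf_eq_bot {U : Subgroup G} (hU : IsCoatom U) (hcore : U.normalCore = ⊥)
    {N : Subgroup G} [hN : N.Normal] (hne : N ≠ ⊥) :
    Subgroup.centralizer (N : Set G) ⊓ U = ⊥ := by
  refine eq_bot_of_normal_le hcore ⟨fun x hx g => ?_⟩ inf_le_right
  obtain ⟨n, hn, u, hu, rfl⟩ := cover hU hcore hN hne g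
  have hC : (Subgroup.centralizer (N : Set G)).Normal := inferInstance
  have h1 := hC.conj_mem x hx.1 u
  have h2 : n * u * x * (n * u)⁻¹ = u * x * u⁻¹ := by
    have e : n * u * x * (n * u)⁻¹ = n * (u * x * u⁻¹) * n⁻¹ := by group
    rw [e, Subgroup.mem_centralizer_iff.1 h1 n hn, mul_inv_cancel_right]
  rw [h2]
  exact ⟨h1, U.mul_mem (U.mul_mem hu hx.2) (U.inv_mem hu)⟩

theorem centralizer_minimal {U : Subgroup G} (hU : IsCoatom U) (hcore : U.normalCore = ⊥)
    {N : Subgroup G} [hN : N.Normal] (hne : N ≠ ⊥) {K : Subgroup G} (hK : K.Normal)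
    (hle : K ≤ Subgroup.centralizer (N : Set G)) :
    K = ⊥ ∨ K = Subgroup.centralizer (N : Set G) := by
  by_cases hK0 : K = ⊥
  · exact Or.inl hK0
  refine Or.inr (le_antisymm hle fun c hc => ?_)
  obtain ⟨k, hk, u, hu, rfl⟩ := cover hU hcore hK hK0 c
  have hu' : u ∈ Subgroup.centralizer (N : Set G) ⊓ U :=
    ⟨by simpa using mul_mem (inv_mem (hle hk)) hc, hu⟩
  rw [centralizer_inf_eq_bot hU hcore hne, Subgroup.mem_bot] at hu'
  rw [hu', mul_one]; exact hk

theorem centralizer_eq_self {U : Subgroup G} (hU : IsCoatom U) (hcore : U.normalCore = ⊥)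
    {N : Subgroup G} [hN : N.Normal] (hne : N ≠ ⊥) (hc : IsMulCommutative N) :
    Subgroup.centralizer (N : Set G) = N := by
  rcases centralizer_minimal hU hcore hne hN (fun x hx => Subgroup.mem_centralizer_iff.2 fun y hy =>
    congrArg Subtype.val (hc.is_comm.comm (⟨y, hy⟩ : N) ⟨x, hx⟩)) with h | h
  · exact absurd h hne
  · exact h.symm

theorem pCore_isPGroup [Finite G] (p : ℕ) [Fact p.Prime] : IsPGroup p (Cfsg.pCore p G) :=
  (Cfsg.Agent.Solv.pCore_mem p).2

/-- The structure of a group with a core-free maximal subgroup and nontrivial `p`-core. -/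
theorem structure_pCore [Finite G] (p : ℕ) [hp : Fact p.Prime] (hL : Cfsg.pCore p G ≠ ⊥)
    (M : Subgroup G) (hM : IsCoatom M) (hcore : M.normalCore = ⊥) :
    Cfsg.IsElementaryAbelian p (Cfsg.pCore p G) ∧ Subgroup.IsComplement' (Cfsg.pCore p G) M ∧
      (∀ K : Subgroup G, K.Normal → K ≤ Cfsg.pCore p G → K = ⊥ ∨ K = Cfsg.pCore p G) ∧
      Subgroup.centralizer ((Cfsg.pCore p G : Subgroup G) : Set G) = Cfsg.pCore p G := by
  set L := Cfsg.pCore p G with hLdef
  haveI hLn : L.Normal := (Cfsg.Agent.Solv.pCore_mem p).1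
  have hLp : IsPGroup p L := pCore_isPGroup p
  obtain ⟨N, hN, hne, hNL, hmin⟩ := Cfsg.Agent.Solv.exists_minimal_normal hLn hL
  haveI := hN
  have hNp : IsPGroup p N := hLp.to_le hNL
  haveI : Group.IsNilpotent N := hNp.isNilpotent
  obtain ⟨hNc, r, hr, hrd, -, hexp⟩ := Cfsg.Agent.Solv.minimal_normal_solvable hN hne hmin
  obtain ⟨k, hk⟩ := IsPGroup.iff_card.1 hNp
  obtain rfl : r = p := (Nat.prime_dvd_prime_iff_eq hr hp.out).1 (hr.dvd_of_dvd_pow (hk ▸ hrd))
  have hCN := centralizer_eq_self hM hcore hne hNc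
  -- `L` centralises `N`
  have hLN : ∀ x ∈ L, ∀ y ∈ N, x * y = y * x := by
    have hn1 : (N ⊓ Subgroup.centralizer (L : Set G)).Normal := inferInstance
    rcases hmin _ hn1 inf_le_left with h0 | h0
    · exfalso
      have hpd : r ∣ Nat.card (N.subgroupOf L) := by
        rw [Nat.card_congr (Subgroup.subgroupOfEquivOfLe hNL).toEquiv]; exact hrd
      obtain ⟨z, hz, hz1⟩ := (hLp.of_equiv ConjAct.toConjAct).exists_fixed_point_of_prime_dvd_card_of_fixed_point
        (N.subgroupOf L) hpd (a := 1) (fun γ => by exact smul_one γ)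
      have hzm : ((z : L) : G) ∈ N ⊓ Subgroup.centralizer (L : Set G) := by
        refine ⟨z.2, Subgroup.mem_centralizer_iff.2 fun x hx => ?_⟩
        have h1 : x * ((z : L) : G) * x⁻¹ = ((z : L) : G) :=
          congrArg (fun w : N.subgroupOf L => ((w : L) : G)) (hz (ConjAct.toConjAct ⟨x, hx⟩))
        exact mul_inv_eq_iff_eq_mul.1 h1
      rw [h0, Subgroup.mem_bot] at hzm
      exact hz1 (Subtype.ext (Subtype.ext hzm.symm))
    · intro x hx y hy
      have h1 : y ∈ N ⊓ Subgroup.centralizer (L : Set G) := by rw [h0]; exact hy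
      exact Subgroup.mem_centralizer_iff.1 h1.2 x hx
  have hLN' : L = N := le_antisymm (fun x hx => hCN ▸ Subgroup.mem_centralizer_iff.2
    (fun y hy => (hLN x hx y hy).symm)) hNL
  rw [hLN']
  refine ⟨⟨hNc, hexp⟩, ?_, hmin, hCN⟩
  refine Cfsg.Agent.Solv.isComplement'_of_inf_sup ?_ (sup_eq_top hM hcore hN hne)
  rw [← hCN]; exact centralizer_inf_eq_bot hM hcore hne

theorem structure_q [Finite G] (p : ℕ) [hp : Fact p.Prime] (hL : Cfsg.pCore p G ≠ ⊥)
    (M : Subgroup G) (hM : IsCoatom M) (hcore : M.normalCore = ⊥)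
    (q : ℕ) [hq : Fact q.Prime] (hQ : Cfsg.pCore q ↥M ≠ ⊥) :
    Nat.card (Cfsg.pCore p G) % q = 1 % q ∧ q ≠ p := by
  obtain ⟨-, hcomp, hmin, hC⟩ := structure_pCore p hL M hM hcore
  set L := Cfsg.pCore p G with hLdef
  haveI hLn : L.Normal := (Cfsg.Agent.Solv.pCore_mem p).1
  haveI hQn : (Cfsg.pCore q ↥M).Normal := (Cfsg.Agent.Solv.pCore_mem q).1
  have hQp : IsPGroup q (Cfsg.pCore q ↥M) := pCore_isPGroup q
  let act : (Cfsg.pCore q ↥M) →* MulAut L :=
    (MulAut.conjNormal (H := L)).comp (M.subtype.comp (Cfsg.pCore q ↥M).subtype)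
  letI : MulAction (Cfsg.pCore q ↥M) L := MulAction.compHom L act
  have hsm : ∀ (x : Cfsg.pCore q ↥M) (y : L), ((x • y : L) : G) = ((x : M) : G) * y * ((x : M) : G)⁻¹ :=
    fun x y => rfl
  let F : Subgroup G := L ⊓ Subgroup.centralizer (((Cfsg.pCore q ↥M).map M.subtype : Subgroup G) : Set G)
  have hFn : F.Normal := by
    refine ⟨fun y hy g => ?_⟩
    obtain ⟨n, hn, u, hu, rfl⟩ := cover hM hcore hLn hL g
    have h1 : u * y * u⁻¹ ∈ F := by
      refine ⟨hLn.conj_mem y hy.1 u, Subgroup.mem_centralizer_iff.2 ?_⟩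
      rintro z ⟨z', hz', rfl⟩
      have h2 : u⁻¹ * (z' : G) * u ∈ (Cfsg.pCore q ↥M).map M.subtype := by
        refine ⟨(⟨u, hu⟩ : M)⁻¹ * z' * ⟨u, hu⟩, ?_, rfl⟩
        simpa using hQn.conj_mem z' hz' (⟨u, hu⟩ : M)⁻¹
      have h3 := Subgroup.mem_centralizer_iff.1 hy.2 _ h2
      calc (z' : G) * (u * y * u⁻¹) = u * ((u⁻¹ * (z' : G) * u) * y) * u⁻¹ := by group
        _ = u * (y * (u⁻¹ * (z' : G) * u)) * u⁻¹ := by rw [h3]
        _ = (u * y * u⁻¹) * (z' : G) := by group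
    have h4 : n * u * y * (n * u)⁻¹ = u * y * u⁻¹ := by
      have e : n * u * y * (n * u)⁻¹ = n * (u * y * u⁻¹) * n⁻¹ := by group
      have hc : u * y * u⁻¹ ∈ Subgroup.centralizer (L : Set G) := by rw [hC]; exact h1.1
      rw [e, Subgroup.mem_centralizer_iff.1 hc n hn, mul_inv_cancel_right]
    rw [h4]; exact h1
  have hF : F = ⊥ := by
    rcases hmin F hFn inf_le_left with h | h
    · exact h
    · exfalso
      apply hQ
      rw [eq_bot_iff]
      intro x hx
      have hx1 : (x : G) ∈ L ⊓ M := by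
        have h2 : (x : G) ∈ Subgroup.centralizer (L : Set G) := Subgroup.mem_centralizer_iff.2 fun y hy => by
          have hy' : y ∈ F := by rw [h]; exact hy
          exact (Subgroup.mem_centralizer_iff.1 hy'.2 _ (Subgroup.mem_map_of_mem M.subtype hx)).symm
        exact ⟨hC ▸ h2, x.2⟩
      rw [hcomp.disjoint.eq_bot, Subgroup.mem_bot] at hx1
      exact Subgroup.mem_bot.2 (Subtype.ext hx1)
  have hfix : Nat.card (MulAction.fixedPoints (Cfsg.pCore q ↥M) L) = 1 := by
    rw [Nat.card_eq_one_iff_unique]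
    refine ⟨⟨fun a b => ?_⟩, ⟨⟨1, fun x => Subtype.ext (by rw [hsm]; simp)⟩⟩⟩
    have key : ∀ a : MulAction.fixedPoints (Cfsg.pCore q ↥M) L, ((a : L) : G) = 1 := by
      intro a
      have ha : ((a : L) : G) ∈ F := by
        refine ⟨(a : L).2, Subgroup.mem_centralizer_iff.2 ?_⟩
        rintro z ⟨z', hz', rfl⟩
        have := congrArg Subtype.val (a.2 ⟨z', hz'⟩)
        rw [hsm] at this
        exact mul_inv_eq_iff_eq_mul.1 this
      rwa [hF, Subgroup.mem_bot] at ha
    exact Subtype.ext (Subtype.ext ((key a).trans (key b).symm))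
  have hmod : Nat.card L % q = 1 % q := by
    have := hQp.card_modEq_card_fixedPoints L
    rw [hfix] at this
    exact this
  refine ⟨hmod, fun hqp => ?_⟩
  subst hqp
  obtain ⟨k, hk⟩ := IsPGroup.iff_card.1 (pCore_isPGroup (G := G) q)
  rcases Nat.eq_zero_or_pos k with rfl | hk0
  · exact hL (Subgroup.eq_bot_of_card_eq L (by rw [hk, pow_zero]))
  · rw [hk, Nat.mod_eq_zero_of_dvd (dvd_pow_self q hk0.ne'), Nat.mod_eq_of_lt hq.out.one_lt] at hmod
    exact zero_ne_one hmod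

theorem exists_pCore_ne_bot [Finite G] [Group.IsSolvable G] [Nontrivial G] :
    ∃ p : ℕ, ∃ _ : Fact p.Prime, Cfsg.pCore p G ≠ ⊥ := by
  obtain ⟨N, hN, hne, -, hmin⟩ := Cfsg.Agent.Solv.exists_minimal_normal (N := (⊤ : Subgroup G)) inferInstance top_ne_bot
  obtain ⟨-, p, hp, -, hpg, -⟩ := Cfsg.Agent.Solv.minimal_normal_solvable hN hne hmin
  haveI := Fact.mk hp
  exact ⟨p, ⟨hp⟩, fun h => hne (le_bot_iff.1 (h ▸ Cfsg.Agent.Solv.le_pCore hN hpg))⟩

theorem conj_of_coreFree [Finite G] [Group.IsSolvable G] (U V : Subgroup G) (hU : IsCoatom U)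
    (hV : IsCoatom V) (hUc : U.normalCore = ⊥) (hVc : V.normalCore = ⊥) :
    ∃ g : G, MulAut.conj g • U = V := by
  by_cases hU0 : U = ⊥
  · subst hU0
    refine ⟨1, ?_⟩
    rw [map_one, one_smul]
    by_contra hne
    exact hV.1 (hU.2 V (bot_lt_iff_ne_bot.2 (Ne.symm hne)))
  haveI : Nontrivial G := by
    obtain ⟨x, hx, hx1⟩ := U.bot_or_exists_ne_one.resolve_left hU0
    exact ⟨x, 1, hx1⟩
  obtain ⟨p, hp, hL⟩ := exists_pCore_ne_bot (G := G)
  obtain ⟨-, hcU, hmin, -⟩ := structure_pCore p hL U hU hUc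
  obtain ⟨-, hcV, -, -⟩ := structure_pCore p hL V hV hVc
  haveI : Nontrivial U := (Subgroup.nontrivial_iff_ne_bot _).2 hU0
  obtain ⟨q, hq, hQ⟩ := exists_pCore_ne_bot (G := U)
  have hqp := (structure_q p hL U hU hUc q hQ).2
  set L := Cfsg.pCore p G with hLdef
  haveI hLn : L.Normal := (Cfsg.Agent.Solv.pCore_mem p).1
  set Q := (Cfsg.pCore q ↥U).map U.subtype with hQdef
  have hQU : Q ≤ U := Subgroup.map_subtype_le _
  have hQp : IsPGroup q Q := (pCore_isPGroup (G := U) q).map U.subtype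
  haveI hQn : (Cfsg.pCore q ↥U).Normal := (Cfsg.Agent.Solv.pCore_mem q).1
  have hUN : U ≤ Subgroup.normalizer (Q : Set G) := by
    refine le_trans ?_ (Subgroup.le_normalizer_map U.subtype)
    rw [Subgroup.normalizer_eq_top_iff.2 hQn]
    intro x hx
    exact ⟨⟨x, hx⟩, Subgroup.mem_top _, rfl⟩
  set X := L ⊔ Q with hXdef
  haveI hXn : X.Normal := by
    refine ⟨fun x hx g => ?_⟩
    obtain ⟨n, hn, u, hu, rfl⟩ := cover hU hUc hLn hL g
    rw [hXdef, ← SetLike.mem_coe, Subgroup.normal_mul] at hx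
    obtain ⟨a, ha, b, hb, rfl⟩ := hx
    have e : n * u * (a * b) * (n * u)⁻¹ = n * ((u * a * u⁻¹) * (u * b * u⁻¹)) * n⁻¹ := by group
    rw [e]
    exact X.mul_mem (X.mul_mem (le_sup_left (b := Q) hn) (X.mul_mem (le_sup_left (b := Q) (hLn.conj_mem a ha u))
      (le_sup_right (a := L) ((Subgroup.mem_normalizer_iff.1 (hUN hu) b).1 hb))))
      (X.inv_mem (le_sup_left (b := Q) hn))
  have hLX : L ≤ X := le_sup_left
  have hQX : Q ≤ X := le_sup_right
  set R := V ⊓ X with hRdef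
  have hRL : R ⊔ L = X := by
    refine le_antisymm (sup_le inf_le_right hLX) fun x hx => ?_
    obtain ⟨n, hn, v, hv, rfl⟩ := cover hV hVc hLn hL x
    refine Subgroup.mul_mem _ (le_sup_right (a := R) hn) (le_sup_left (b := L) ⟨hv, ?_⟩)
    simpa using X.mul_mem (X.inv_mem (hLX hn)) hx
  have hqL : ∀ E : Subgroup G, IsPGroup q E → (Nat.card E).Coprime (Nat.card L) := by
    intro E hE
    obtain ⟨i, hi⟩ := IsPGroup.iff_card.1 hE
    obtain ⟨j, hj⟩ := IsPGroup.iff_card.1 (pCore_isPGroup (G := G) p)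
    rw [hi, hLdef, hj]
    exact ((Nat.coprime_primes hq.out hp.out).2 hqp).pow i j
  have hidx : (L.subgroupOf X).index = Nat.card Q := by
    show L.relIndex X = _
    rw [hXdef, sup_comm, Subgroup.relIndex_sup_right, ← Subgroup.inf_relIndex_right,
      le_bot_iff.1 ((inf_le_inf_left L hQU).trans hcU.disjoint.eq_bot.le), Subgroup.relIndex_bot_left]
  have hRcard : Nat.card R = Nat.card Q := by
    rw [← hidx]
    show _ = L.relIndex X
    rw [← hRL, Subgroup.relIndex_sup_right, ← Subgroup.inf_relIndex_right,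
      le_bot_iff.1 ((inf_le_inf_left L (inf_le_left : R ≤ V)).trans hcV.disjoint.eq_bot.le),
      Subgroup.relIndex_bot_left]
  have hRp : IsPGroup q R := by
    obtain ⟨i, hi⟩ := IsPGroup.iff_card.1 hQp
    exact IsPGroup.of_card (hRcard.trans hi)
  haveI : Group.IsNilpotent (L.subgroupOf X) :=
    ((pCore_isPGroup (G := G) p).of_equiv (Subgroup.subgroupOfEquivOfLe hLX).symm).isNilpotent
  have hc1 : ∀ E : Subgroup G, E ≤ X → IsPGroup q E →
      (Nat.card (E.subgroupOf X)).Coprime (Nat.card (L.subgroupOf X)) := fun E hE hEp => by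
    rw [Nat.card_congr (Subgroup.subgroupOfEquivOfLe hE).toEquiv,
      Nat.card_congr (Subgroup.subgroupOfEquivOfLe hLX).toEquiv]
    exact hqL E hEp
  obtain ⟨x, -, hx⟩ := Cfsg.Agent.Solv.sz_conj (L.subgroupOf X) (by
      rw [hidx, Nat.card_congr (Subgroup.subgroupOfEquivOfLe hLX).toEquiv]; exact (hqL Q hQp).symm)
    (Or.inl inferInstance)
    (H := Q.subgroupOf X) (K := R.subgroupOf X)
    (by rw [← Subgroup.subgroupOf_sup hQX hLX, sup_comm, ← hXdef, Subgroup.subgroupOf_self])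
    (hc1 Q hQX hQp)
    (by rw [← Subgroup.subgroupOf_sup inf_le_right hLX, hRL, Subgroup.subgroupOf_self])
    (hc1 R inf_le_right hRp)
  have hx' := Cfsg.Agent.Solv.conj_of_conj_subgroupOf hQX inf_le_right hx
  refine ⟨(x : G), ?_⟩
  have hVR : V ≤ Subgroup.normalizer (R : Set G) := fun v hv => Subgroup.mem_normalizer_iff.2 fun y =>
    ⟨fun hy => ⟨V.mul_mem (V.mul_mem hv hy.1) (V.inv_mem hv), hXn.conj_mem y hy.2 v⟩,
     fun hy => ⟨by simpa [mul_assoc] using V.mul_mem (V.mul_mem (V.inv_mem hv) hy.1) hv,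
       (show y ∈ X by simpa [mul_assoc] using hXn.conj_mem _ hy.2 v⁻¹)⟩⟩
  have hQne : Q ≠ ⊥ := fun e => hQ ((Subgroup.map_eq_bot_iff_of_injective _ U.subtype_injective).1 e)
  have hUeq : U = Subgroup.normalizer (Q : Set G) := by
    by_contra hne
    have := hU.2 _ (lt_of_le_of_ne hUN hne)
    exact hQne (eq_bot_of_normal_le hUc (Subgroup.normalizer_eq_top_iff.1 this) hQU)
  have hle : V ≤ MulAut.conj (x : G) • U := by
    intro v hv
    rw [Cfsg.Agent.Solv.mem_conj_smul, hUeq]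
    refine Cfsg.Agent.Solv.mem_normalizer_of_conj ?_
    have h1 := Cfsg.Agent.Solv.conj_of_mem_normalizer (hVR hv)
    rw [← (show MulAut.conj (x : G) • Q = R from hx')] at h1
    calc MulAut.conj ((x : G)⁻¹ * v * x) • Q
        = MulAut.conj (x : G)⁻¹ • MulAut.conj v • MulAut.conj (x : G) • Q := by
          rw [smul_smul, smul_smul, ← map_mul, ← map_mul, mul_assoc]
      _ = Q := by rw [h1, smul_smul, ← map_mul, inv_mul_cancel, map_one, one_smul]
  by_contra hne
  have htop := hV.2 _ (lt_of_le_of_ne hle (Ne.symm hne))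
  apply hU.1
  rw [eq_top_iff]
  intro g _
  have hg : (x : G) * g * (x : G)⁻¹ ∈ MulAut.conj (x : G) • U := by rw [htop]; trivial
  rw [Cfsg.Agent.Solv.mem_conj_smul] at hg
  simpa [mul_assoc] using hg

end Cfsg.Agent.Solv.Prim
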