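import Cfsg.Prelude.Def_KGroupFacts
import Cfsg.Agent.Solv.AbelianAction
import Mathlib.GroupTheory.SpecificGroups.Quaternion
import Mathlib.GroupTheory.SpecificGroups.Dihedral
import Mathlib.LinearAlgebra.FreeModule.Finite.Basic
import Mathlib.LinearAlgebra.Dimension.Finite
import Mathlib.FieldTheory.Finiteness
import Mathlib.Algebra.Module.ZMod
import Mathlib.Tactic.LinearCombination
import Mathlib.Algebra.Field.ZMod

/-! Stem extensions of cyclic, abelian, dihedral and dicyclic groups. -/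

set_option autoImplicit false
set_option linter.style.haveILetI false

universe u

namespace Cfsg.Agent.Solv

theorem stem_existence_id (G : Type u) [Group G] :
    Cfsg.IsStemExtension (MonoidHom.id G) := by
  refine ⟨Function.surjective_id, ?_, ?_⟩ <;>
  · rw [(MonoidHom.ker_eq_bot_iff _).mpr Function.injective_id]; exact bot_le

theorem hasTrivialMultiplier_of {G : Type u} [Group G] [Finite G]
    (h : ∀ (Γ : Type u) [Group Γ] [Finite Γ] (σ : Γ →* G), Cfsg.IsStemExtension σ → σ.ker = ⊥) :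
    Cfsg.HasCyclicSchurMultiplier G 1 := by
  refine ⟨⟨G, inferInstance, inferInstance, MonoidHom.id G, stem_existence_id G, ?_⟩, ?_⟩
  · haveI : Subsingleton (MonoidHom.id G).ker := by
      rw [(MonoidHom.ker_eq_bot_iff _).mpr Function.injective_id]; infer_instance
    exact ⟨{ toFun := fun _ => 1, invFun := fun _ => 1, left_inv := fun x => Subsingleton.elim _ _,
             right_inv := fun x => Subsingleton.elim _ _, map_mul' := fun _ _ => Subsingleton.elim _ _ }⟩
  · intro Γ _ _ σ hσ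
    refine ⟨1, fun y => ⟨1, ?_⟩⟩
    have hy := (h Γ σ hσ).le y.2
    rw [Subgroup.mem_bot] at hy
    exact Subtype.ext hy.symm

theorem stem_ker_bot_of_cyclic {G : Type u} [Group G] [IsCyclic G] {Γ : Type u} [Group Γ] (σ : Γ →* G)
    (hσ : Cfsg.IsStemExtension σ) : σ.ker = ⊥ := by
  have hc : ∀ a b : Γ, a * b = b * a :=
    commutative_of_cyclic_center_quotient σ (by exact hσ.2.1)
  refine le_bot_iff.mp (hσ.2.2.trans (le_of_eq ?_))
  rw [commutator_def, Subgroup.commutator_eq_bot_iff_le_centralizer]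
  intro x _
  rw [Subgroup.mem_centralizer_iff]
  exact fun y _ => hc y x

/-- In a stem extension of a group generated by `A` and an element inverting it. -/
theorem stem_ker_le {G : Type u} [Group G] {Γ : Type u} [Group Γ] {σ : Γ →* G} (hσ : Cfsg.IsStemExtension σ)
    {a b : Γ} (hgen : Subgroup.closure {σ a, σ b} = ⊤) (hinv : σ b * σ a * (σ b)⁻¹ = (σ a)⁻¹) :
    ∃ d : Γ, σ.ker ≤ Subgroup.zpowers d ∧ σ d = ((σ a) ^ 2)⁻¹ ∧
      ∀ n : ℕ, b * a ^ n = a ^ n * b → d ^ n = 1 := by
  obtain ⟨z, hz⟩ : ∃ z, z = b * a * b⁻¹ * a := ⟨_, rfl⟩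
  have hzker : z ∈ σ.ker := by
    rw [MonoidHom.mem_ker, hz, map_mul, map_mul, map_mul, map_inv, hinv, inv_mul_cancel]
  have hzc : ∀ g : Γ, g * z = z * g := Subgroup.mem_center_iff.mp (hσ.2.1 hzker)
  obtain ⟨d, hd⟩ : ∃ d, d = z * (a ^ 2)⁻¹ := ⟨_, rfl⟩
  have hba : b * a * b⁻¹ = z * a⁻¹ := by rw [hz]; group
  have had : a * d = d * a := by
    have h1 : Commute a z := hzc a
    have h2 : Commute a (a ^ 2)⁻¹ := ((Commute.refl a).pow_right 2).inv_right
    rw [hd]; exact h1.mul_right h2
  have hbd : b * d * b⁻¹ = d⁻¹ := by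
    have h1 : b * (a ^ 2) * b⁻¹ = (z * a⁻¹) ^ 2 := by rw [← hba, conj_pow]
    have hcz : Commute z a⁻¹ := ((show Commute a z from hzc a).symm).inv_right
    calc b * d * b⁻¹ = (b * z * b⁻¹) * (b * (a ^ 2) * b⁻¹)⁻¹ := by rw [hd]; group
      _ = z * ((z * a⁻¹) ^ 2)⁻¹ := by rw [h1, hzc b]; group
      _ = z * (z ^ 2 * a⁻¹ ^ 2)⁻¹ := by rw [hcz.mul_pow]
      _ = d⁻¹ := by rw [hd, mul_inv_rev, mul_inv_rev, inv_inv, ← inv_pow, inv_inv]
                    have h3 : z * (a ^ 2 * (z ^ 2)⁻¹) = a ^ 2 * z⁻¹ := by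
                      rw [← mul_assoc, ((show Commute z a from (hzc a).symm).pow_right 2).eq, mul_assoc, sq z]
                      group
                    exact h3
  have hd' : Subgroup.zpowers d ≤ ⊤ := le_top
  obtain ⟨W, hW⟩ : ∃ W : Subgroup Γ, W = Subgroup.closure {a, b} ⊔ σ.ker := ⟨_, rfl⟩
  have hWtop : W = ⊤ := by
    rw [eq_top_iff]
    intro g _
    have hg : σ g ∈ (Subgroup.closure {a, b}).map σ := by
      rw [MonoidHom.map_closure, Set.image_pair, hgen]; trivial
    obtain ⟨w, hw, hwe⟩ := hg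
    have hk : w⁻¹ * g ∈ σ.ker := by rw [MonoidHom.mem_ker, map_mul, map_inv, hwe, inv_mul_cancel]
    rw [show g = w * (w⁻¹ * g) by group, hW]
    exact Subgroup.mul_mem_sup hw hk
  haveI hnorm : (Subgroup.zpowers d).Normal := by
    rw [← Subgroup.normalizer_eq_top_iff, eq_top_iff, ← hWtop, hW]
    refine sup_le ((Subgroup.closure_le _).mpr ?_) ?_
    · rintro x (rfl | rfl)
      · show x ∈ Subgroup.normalizer _
        rw [Subgroup.mem_normalizer_iff_map_conj_eq, MonoidHom.map_zpowers]
        congr 1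
        show x * d * x⁻¹ = d
        rw [had, mul_inv_cancel_right]
      · show x ∈ Subgroup.normalizer _
        rw [Subgroup.mem_normalizer_iff_map_conj_eq, MonoidHom.map_zpowers,
          ← Subgroup.zpowers_inv (g := d)]
        congr 1
    · intro k hk
      rw [Subgroup.mem_normalizer_iff_map_conj_eq, MonoidHom.map_zpowers]
      congr 1
      show k * d * k⁻¹ = d
      rw [← Subgroup.mem_center_iff.mp (hσ.2.1 hk) d, mul_inv_cancel_right]
  have hcomm : commutator Γ ≤ Subgroup.zpowers d := by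
    rw [commutator_def, ← hWtop]
    let q := QuotientGroup.mk' (Subgroup.zpowers d)
    have hqab : q a * q b = q b * q a := by
      have hd1 : q d = 1 := (QuotientGroup.eq_one_iff d).mpr (Subgroup.mem_zpowers d)
      have hrel : b * a = d * (a * b) := by
        calc b * a = b * a * b⁻¹ * b := by group
          _ = z * a⁻¹ * b := by rw [hba]
          _ = z * (a ^ 2)⁻¹ * (a * b) := by group
          _ = d * (a * b) := by rw [hd]
      rw [← map_mul, ← map_mul, hrel, map_mul q d, hd1, one_mul]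
    have hkc : ∀ k ∈ σ.ker, q k ∈ Subgroup.center (Γ ⧸ Subgroup.zpowers d) := by
      intro k hk
      rw [Subgroup.mem_center_iff]
      intro y
      obtain ⟨y, rfl⟩ := QuotientGroup.mk'_surjective _ y
      rw [← map_mul, ← map_mul, Subgroup.mem_center_iff.mp (hσ.2.1 hk) y]
    have htop : ∀ C : Subgroup (Γ ⧸ Subgroup.zpowers d),
        q a ∈ C → q b ∈ C → Subgroup.center _ ≤ C → ∀ y, y ∈ C := by
      intro C h1 h2 h3 y
      obtain ⟨y, rfl⟩ := QuotientGroup.mk'_surjective _ y
      have hle : W ≤ C.comap q := hW ▸ sup_le ((Subgroup.closure_le _).mpr (by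
        rintro u (rfl | rfl)
        · exact h1
        · exact h2)) fun k hk => h3 (hkc k hk)
      exact hle (hWtop ▸ Subgroup.mem_top y)
    have hcen : ∀ u ∈ ({q a, q b} : Set _), u ∈ Subgroup.center (Γ ⧸ Subgroup.zpowers d) := by
      intro u hu
      rw [Subgroup.mem_center_iff]
      intro y
      refine Subgroup.mem_centralizer_singleton_iff.mp
        (htop (Subgroup.centralizer {u}) ?_ ?_ (Subgroup.center_le_centralizer _) y)
      · rw [Subgroup.mem_centralizer_singleton_iff]
        rcases hu with rfl | rfl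
        · rfl
        · exact hqab
      · rw [Subgroup.mem_centralizer_singleton_iff]
        rcases hu with rfl | rfl
        · exact hqab.symm
        · rfl
    have hall : ∀ y, y ∈ Subgroup.center (Γ ⧸ Subgroup.zpowers d) :=
      htop _ (hcen _ (Or.inl rfl)) (hcen _ (Or.inr rfl)) le_rfl
    have hmap : ⁅W, W⁆.map q = ⊥ := by
      rw [Subgroup.map_commutator, Subgroup.commutator_eq_bot_iff_le_centralizer]
      intro x _
      exact Subgroup.mem_centralizer_iff.mpr fun y _ => Subgroup.mem_center_iff.mp (hall x) y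
    rw [Subgroup.map_eq_bot_iff, QuotientGroup.ker_mk'] at hmap
    exact hmap
  refine ⟨d, hσ.2.2.trans hcomm, ?_, ?_⟩
  · rw [hd, map_mul, show σ z = 1 from hzker, one_mul, map_inv, map_pow]
  · intro n hn
    have h1 : (b * a * b⁻¹) ^ n = a ^ n := by rw [conj_pow, hn, mul_inv_cancel_right]
    have hcz : Commute z a := (hzc a).symm
    rw [hba, hcz.inv_right.mul_pow, inv_pow] at h1
    rw [hd, hcz.symm.symm.pow_right 2 |>.inv_right.mul_pow, inv_pow, ← pow_mul, mul_comm 2 n, pow_mul, sq]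
    calc z ^ n * (a ^ n * a ^ n)⁻¹ = (z ^ n * (a ^ n)⁻¹) * (a ^ n)⁻¹ := by group
      _ = 1 := by rw [h1, mul_inv_cancel]

theorem stem_ker_bot_quaternion (n : ℕ) [NeZero n] {Γ : Type} [Group Γ] (σ : Γ →* QuaternionGroup n)
    (hσ : Cfsg.IsStemExtension σ) : σ.ker = ⊥ := by
  obtain ⟨a, ha⟩ := hσ.1 (QuaternionGroup.a 1)
  obtain ⟨b, hb⟩ := hσ.1 (QuaternionGroup.xa 0)
  have hgen : Subgroup.closure {σ a, σ b} = ⊤ := by
    rw [eq_top_iff, ha, hb]
    intro g _
    have h1 : ∀ i : ZMod (2 * n), QuaternionGroup.a i ∈ Subgroup.closure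
        ({QuaternionGroup.a 1, QuaternionGroup.xa 0} : Set (QuaternionGroup n)) := fun i => by
      rw [← ZMod.natCast_zmod_val i, ← QuaternionGroup.a_one_pow]
      exact pow_mem (Subgroup.subset_closure (Set.mem_insert _ _)) _
    cases g with
    | a i => exact h1 i
    | xa i =>
      rw [show QuaternionGroup.xa i = QuaternionGroup.xa 0 * QuaternionGroup.a i by simp]
      exact mul_mem (Subgroup.subset_closure (Set.mem_insert_of_mem _ rfl)) (h1 i)
  have hinv : σ b * σ a * (σ b)⁻¹ = (σ a)⁻¹ := by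
    rw [ha, hb, mul_inv_eq_iff_eq_mul, eq_inv_mul_iff_mul_eq]
    simp
  obtain ⟨d, hker, hdσ, hdn⟩ := stem_ker_le hσ hgen hinv
  have hbn : b * a ^ n = a ^ n * b := by
    have h2 : (b * b)⁻¹ * a ^ n ∈ σ.ker := by
      rw [MonoidHom.mem_ker, map_mul, map_inv, map_mul, map_pow, ha, hb, QuaternionGroup.a_one_pow, inv_mul_eq_one]
      simp
    have h3 := Subgroup.mem_center_iff.mp (hσ.2.1 h2) b
    calc b * a ^ n = (b * b) * (b * ((b * b)⁻¹ * a ^ n)) := by group
      _ = (b * b) * (((b * b)⁻¹ * a ^ n) * b) := by rw [h3]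
      _ = a ^ n * b := by group
  rw [Subgroup.eq_bot_iff_forall]
  intro x hx
  obtain ⟨k, rfl⟩ := Subgroup.mem_zpowers_iff.mp (hker hx)
  have hk : ((σ a) ^ 2) ^ k = 1 := by
    have : σ (d ^ k) = 1 := hx
    rwa [map_zpow, hdσ, inv_zpow, inv_eq_one] at this
  rw [← zpow_natCast, ← zpow_mul, ← orderOf_dvd_iff_zpow_eq_one, ha, QuaternionGroup.orderOf_a_one] at hk
  obtain ⟨t, rfl⟩ : (n : ℤ) ∣ k := by
    push_cast at hk
    exact (mul_dvd_mul_iff_left (two_ne_zero)).mp hk
  rw [zpow_mul, zpow_natCast, hdn n hbn, one_zpow]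

theorem stem_dihedral (n : ℕ) [NeZero n] {Γ : Type} [Group Γ] (σ : Γ →* DihedralGroup n)
    (hσ : Cfsg.IsStemExtension σ) : ∃ d : Γ, σ.ker ≤ Subgroup.zpowers d ∧ d ^ n = 1 ∧
      ∀ k : ℤ, d ^ k ∈ σ.ker → (n : ℤ) ∣ 2 * k := by
  obtain ⟨a, ha⟩ := hσ.1 (DihedralGroup.r 1)
  obtain ⟨b, hb⟩ := hσ.1 (DihedralGroup.sr 0)
  have hgen : Subgroup.closure {σ a, σ b} = ⊤ := by
    rw [eq_top_iff, ha, hb]
    intro g _
    have h1 : ∀ i : ZMod n, DihedralGroup.r i ∈ Subgroup.closure
        ({DihedralGroup.r 1, DihedralGroup.sr 0} : Set (DihedralGroup n)) := fun i => by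
      rw [← ZMod.natCast_zmod_val i, ← DihedralGroup.r_one_pow]
      exact pow_mem (Subgroup.subset_closure (Set.mem_insert _ _)) _
    cases g with
    | r i => exact h1 i
    | sr i =>
      rw [show DihedralGroup.sr i = DihedralGroup.sr 0 * DihedralGroup.r i by simp]
      exact mul_mem (Subgroup.subset_closure (Set.mem_insert_of_mem _ rfl)) (h1 i)
  have hinv : σ b * σ a * (σ b)⁻¹ = (σ a)⁻¹ := by
    rw [ha, hb, mul_inv_eq_iff_eq_mul, eq_inv_mul_iff_mul_eq]
    simp
  obtain ⟨d, hker, hdσ, hdn⟩ := stem_ker_le hσ hgen hinv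
  refine ⟨d, hker, hdn n ?_, ?_⟩
  · have h2 : a ^ n ∈ σ.ker := by
      rw [MonoidHom.mem_ker, map_pow, ha, DihedralGroup.r_one_pow, ZMod.natCast_self]; rfl
    exact Subgroup.mem_center_iff.mp (hσ.2.1 h2) b
  · intro k hx
    have hk : ((σ a) ^ 2) ^ k = 1 := by
      have : σ (d ^ k) = 1 := hx
      rwa [map_zpow, hdσ, inv_zpow, inv_eq_one] at this
    rw [← zpow_natCast, ← zpow_mul, ← orderOf_dvd_iff_zpow_eq_one, ha, DihedralGroup.orderOf_r_one] at hk
    exact_mod_cast hk

/-- The covering map of the dicyclic group onto the dihedral group. -/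
theorem exists_quaternion_cover (n : ℕ) [NeZero n] (hn : Even n) :
    ∃ σ : QuaternionGroup n →* DihedralGroup n, Cfsg.IsStemExtension σ ∧ Nat.card σ.ker = 2 := by
  let c : ZMod (2 * n) →+* ZMod n := ZMod.castHom (dvd_mul_left n 2) (ZMod n)
  let f : QuaternionGroup n → DihedralGroup n := fun g => match g with
    | .a i => .r (c i)
    | .xa i => .sr (c i)
  have hcn : c (n : ZMod (2 * n)) = 0 := by rw [map_natCast, ZMod.natCast_self]
  let σ : QuaternionGroup n →* DihedralGroup n :=
    { toFun := f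
      map_one' := by show DihedralGroup.r (c 0) = _; rw [map_zero]; rfl
      map_mul' := by
        rintro (i | i) (j | j) <;> simp [f, hcn, map_add, map_sub] }
  have hkmem : ∀ g : QuaternionGroup n, g ∈ σ.ker ↔ g = 1 ∨ g = .a (n : ZMod (2 * n)) := by
    intro g
    rw [MonoidHom.mem_ker]
    constructor
    · intro h
      cases g with
      | a i =>
        have hci : c i = 0 := by
          have : DihedralGroup.r (c i) = DihedralGroup.r 0 := h
          exact DihedralGroup.r.inj this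
        rw [← ZMod.natCast_zmod_val i, map_natCast, ZMod.natCast_eq_zero_iff] at hci
        obtain ⟨t, ht⟩ := hci
        have hlt := ZMod.val_lt i
        rw [ht] at hlt
        have ht2 : t < 2 := by
          have hn0 : 0 < n := NeZero.pos n
          exact Nat.lt_of_mul_lt_mul_left (by rw [mul_comm n 2]; exact hlt)
        rw [← ZMod.natCast_zmod_val i, ht]
        interval_cases t
        · left; rw [mul_zero, Nat.cast_zero]; rfl
        · right; rw [mul_one]
      | xa i =>
        have h' : DihedralGroup.sr (c i) = DihedralGroup.r 0 := h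
        cases h'
    · rintro (rfl | rfl)
      · exact map_one σ
      · show DihedralGroup.r (c _) = _; rw [hcn]; rfl
  have hne : (QuaternionGroup.a (n : ZMod (2 * n)) : QuaternionGroup n) ≠ 1 := by
    intro h
    have h' : ((n : ℕ) : ZMod (2 * n)) = 0 := QuaternionGroup.a.inj h
    rw [ZMod.natCast_eq_zero_iff] at h'
    have := Nat.le_of_dvd (NeZero.pos n) h'
    have := NeZero.pos n
    omega
  refine ⟨σ, ⟨?_, ?_, ?_⟩, ?_⟩
  · intro g
    cases g with
    | r i => exact ⟨.a (i.val : ZMod (2 * n)), by show DihedralGroup.r (c _) = _; rw [map_natCast, ZMod.natCast_zmod_val]⟩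
    | sr i => exact ⟨.xa (i.val : ZMod (2 * n)), by show DihedralGroup.sr (c _) = _; rw [map_natCast, ZMod.natCast_zmod_val]⟩
  · intro g hg
    rw [Subgroup.mem_center_iff]
    rcases (hkmem g).mp hg with rfl | rfl
    · simp
    · have h2n : (n : ZMod (2 * n)) + n = 0 := by
        rw [← Nat.cast_add, ← two_mul, ZMod.natCast_self]
      rintro (i | i)
      · rw [QuaternionGroup.a_mul_a, QuaternionGroup.a_mul_a, add_comm]
      · rw [QuaternionGroup.xa_mul_a, QuaternionGroup.a_mul_xa, QuaternionGroup.xa.injEq]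
        linear_combination h2n
  · intro g hg
    rcases (hkmem g).mp hg with rfl | rfl
    · exact one_mem _
    · obtain ⟨m, hm⟩ := hn
      have h2n : (n : ZMod (2 * n)) + n = 0 := by
        rw [← Nat.cast_add, ← two_mul, ZMod.natCast_self]
      have hm2 : (n : ZMod (2 * n)) = (m : ZMod (2 * n)) + m := by rw [← Nat.cast_add, ← hm]
      rw [commutator_def]
      have := Subgroup.commutator_mem_commutator (Subgroup.mem_top (QuaternionGroup.xa 0 : QuaternionGroup n))
        (Subgroup.mem_top (QuaternionGroup.a (m : ZMod (2 * n)) : QuaternionGroup n))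
      convert this using 1
      rw [commutatorElement_def, eq_mul_inv_iff_mul_eq, eq_mul_inv_iff_mul_eq]
      simp only [QuaternionGroup.a_mul_a, QuaternionGroup.a_mul_xa, QuaternionGroup.xa_mul_a,
        QuaternionGroup.xa.injEq, zero_sub, zero_add]
      linear_combination (-1 : ZMod (2 * n)) * h2n + hm2
  · rw [Nat.card_eq_two_iff]
    refine ⟨1, ⟨_, (hkmem _).mpr (Or.inr rfl)⟩, fun h => hne (congrArg Subtype.val h).symm, ?_⟩
    ext ⟨g, hg⟩
    rcases (hkmem g).mp hg with rfl | rfl <;> simp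

/-- The carrier of a central extension of `G` by `ZMod p`. -/
def CocycleExt (p : ℕ) (G : Type u) : Type u := ZMod p × G

/-- The extension of `ZMod p` by `G` defined by the cocycle `f x * g y`. -/
theorem exists_stem_of_pair {G : Type u} [CommGroup G] [Finite G] {p : ℕ} [Fact p.Prime]
    (f g : G → ZMod p) (hf : ∀ x y, f (x * y) = f x + f y) (hg : ∀ x y, g (x * y) = g x + g y)
    {x y : G} (hxy : f x * g y - f y * g x ≠ 0) :
    ∃ (Γ : Type u) (_ : Group Γ) (_ : Finite Γ) (σ : Γ →* G), Cfsg.IsStemExtension σ ∧ σ.ker ≠ ⊥ := by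
  have hf1 : f 1 = 0 := by have := hf 1 1; rw [mul_one] at this; exact left_eq_add.mp this
  have hg1 : g 1 = 0 := by have := hg 1 1; rw [mul_one] at this; exact left_eq_add.mp this
  have hfi : ∀ u, f u⁻¹ = - f u := fun u => by
    have := hf u⁻¹ u; rw [inv_mul_cancel, hf1] at this; exact eq_neg_of_add_eq_zero_left this.symm
  have hgi : ∀ u, g u⁻¹ = - g u := fun u => by
    have := hg u⁻¹ u; rw [inv_mul_cancel, hg1] at this; exact eq_neg_of_add_eq_zero_left this.symm
  haveI : Finite (CocycleExt p G) := inferInstanceAs (Finite (ZMod p × G))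
  letI : Group (CocycleExt p G) :=
    { mul := fun u v => (u.1 + v.1 + f u.2 * g v.2, u.2 * v.2)
      one := (0, 1)
      inv := fun u => (-u.1 + f u.2 * g u.2, u.2⁻¹)
      mul_assoc := fun u v w => Prod.ext (by
        show u.1 + v.1 + f u.2 * g v.2 + w.1 + f (u.2 * v.2) * g w.2 =
          u.1 + (v.1 + w.1 + f v.2 * g w.2) + f u.2 * g (v.2 * w.2)
        rw [hf, hg]; ring) (mul_assoc _ _ _)
      one_mul := fun u => Prod.ext (by show 0 + u.1 + f 1 * g u.2 = u.1; rw [hf1]; ring) (one_mul _)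
      mul_one := fun u => Prod.ext (by show u.1 + 0 + f u.2 * g 1 = u.1; rw [hg1]; ring) (mul_one _)
      inv_mul_cancel := fun u => Prod.ext (by
        show -u.1 + f u.2 * g u.2 + u.1 + f u.2⁻¹ * g u.2 = 0
        rw [hfi]; ring) (inv_mul_cancel _) }
  let σ : CocycleExt p G →* G := { toFun := Prod.snd, map_one' := rfl, map_mul' := fun _ _ => rfl }
  let mk : ZMod p → G → CocycleExt p G := fun a b => (a, b)
  have hmul : ∀ a b a' b', mk a b * mk a' b' = mk (a + a' + f b * g b') (b * b') := fun _ _ _ _ => rfl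
  have hpow : ∀ (c : ZMod p) (k : ℕ), mk c 1 ^ k = mk (k * c) 1 := by
    intro c k
    induction k with
    | zero => rw [pow_zero, Nat.cast_zero, zero_mul]; rfl
    | succ k ih => rw [pow_succ, ih, hmul, hf1, mul_one, zero_mul, add_zero, Nat.cast_succ, add_mul, one_mul]
  have hc : mk (f x * g y - f y * g x) 1 ∈ commutator (CocycleExt p G) := by
    rw [commutator_def]
    have := Subgroup.commutator_mem_commutator (Subgroup.mem_top (mk 0 x))
      (Subgroup.mem_top (mk 0 y))
    convert this using 1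
    rw [commutatorElement_def, eq_mul_inv_iff_mul_eq, eq_mul_inv_iff_mul_eq, hmul, hmul, hmul]
    congr 1
    · simp only [one_mul, hf1]; ring
    · rw [one_mul, mul_comm]
  refine ⟨CocycleExt p G, inferInstance, inferInstance, σ, ⟨fun v => ⟨mk 0 v, rfl⟩, ?_, ?_⟩, ?_⟩
  · rintro ⟨c, u⟩ (rfl : u = 1)
    show mk c 1 ∈ _
    rw [Subgroup.mem_center_iff]
    rintro ⟨c', v⟩
    show mk c' v * mk c 1 = mk c 1 * mk c' v
    rw [hmul, hmul, hf1, hg1, mul_zero, zero_mul, add_comm c c', mul_comm v 1]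
  · rintro ⟨c, u⟩ (rfl : u = 1)
    show mk c 1 ∈ _
    have := pow_mem hc (c * (f x * g y - f y * g x)⁻¹).val
    rw [hpow, ZMod.natCast_zmod_val] at this
    rwa [mul_assoc, inv_mul_cancel₀ hxy, mul_one] at this
  · intro h
    have := h.le (show mk 1 1 ∈ σ.ker from rfl)
    exact one_ne_zero (congrArg (fun u : CocycleExt p G => u.1) (Subgroup.mem_bot.mp this) : (1 : ZMod p) = 0)

theorem exists_dual_pair_aux {M : Type u} [AddCommGroup M] [Finite M] {p : ℕ} [Fact p.Prime]
    [Module (ZMod p) M] [Module.Finite (ZMod p) M] (hcard : p ^ 2 ≤ Nat.card M) :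
    ∃ (f g : M →+ ZMod p) (x y : M), f x * g y - f y * g x ≠ 0 := by
  classical
  let b := Module.finBasis (ZMod p) M
  have hr : 2 ≤ Module.finrank (ZMod p) M := by
    have h1 := Module.natCard_eq_pow_finrank (K := ZMod p) (V := M)
    rw [Nat.card_zmod] at h1
    exact (Nat.pow_le_pow_iff_right (Fact.out : p.Prime).one_lt).mp (h1 ▸ hcard)
  refine ⟨(b.coord ⟨0, by omega⟩).toAddMonoidHom, (b.coord ⟨1, by omega⟩).toAddMonoidHom,
    b ⟨0, by omega⟩, b ⟨1, by omega⟩, ?_⟩
  simp [Finsupp.single_apply]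

theorem exists_dual_pair {M : Type u} [AddCommGroup M] [Finite M] {p : ℕ} [Fact p.Prime]
    (h : ∀ x : M, p • x = 0) (hcard : p ^ 2 ≤ Nat.card M) :
    ∃ (f g : M →+ ZMod p) (x y : M), f x * g y - f y * g x ≠ 0 :=
  @exists_dual_pair_aux M _ _ p _ (AddCommGroup.zmodModule h)
    (@Module.Finite.of_finite _ _ _ _ (AddCommGroup.zmodModule h) _) hcard

theorem exists_stem_of_not_cyclic {G : Type u} [CommGroup G] [Finite G] (hG : ¬ IsCyclic G) :
    ∃ (Γ : Type u) (_ : Group Γ) (_ : Finite Γ) (σ : Γ →* G), Cfsg.IsStemExtension σ ∧ σ.ker ≠ ⊥ := by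
  obtain ⟨p, hp, hcard⟩ := exists_prime_torsion_of_not_cyclic hG
  haveI := Fact.mk hp
  let P : G →* G := powMonoidHom p
  have hQ : p ^ 2 ≤ Nat.card (G ⧸ P.range) := by
    refine hcard.trans (le_of_eq ?_)
    have h1 := Subgroup.index_mul_card P.range
    have h2 := Subgroup.index_mul_card P.ker
    rw [Subgroup.index_ker] at h2
    rw [← Subgroup.index_eq_card]
    rw [← h2, mul_comm] at h1
    exact (Nat.eq_of_mul_eq_mul_left Nat.card_pos h1).symm
  obtain ⟨f, g, u, v, huv⟩ := exists_dual_pair (M := Additive (G ⧸ P.range)) (p := p) (fun x => by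
    obtain ⟨w, rfl⟩ := Additive.ofMul.surjective x
    obtain ⟨v, rfl⟩ := QuotientGroup.mk'_surjective _ w
    rw [← ofMul_pow, ← map_pow]
    exact congrArg Additive.ofMul ((QuotientGroup.eq_one_iff _).mpr ⟨v, rfl⟩)) hQ
  obtain ⟨x, hx⟩ := QuotientGroup.mk'_surjective P.range (Additive.toMul u)
  obtain ⟨y, hy⟩ := QuotientGroup.mk'_surjective P.range (Additive.toMul v)
  let q : G → Additive (G ⧸ P.range) := fun w => Additive.ofMul (w : G ⧸ P.range)
  refine exists_stem_of_pair (fun w => f (q w)) (fun w => g (q w))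
    (fun a b => map_add f (q a) (q b)) (fun a b => map_add g (q a) (q b)) (x := x) (y := y) ?_
  rw [show q x = u from congrArg Additive.ofMul hx, show q y = v from congrArg Additive.ofMul hy]
  exact huv

end Cfsg.Agent.Solv
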